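import Mathlib
import Cfsg.Agent.Spor.R3.MclC0
import Cfsg.Agent.Spor.MX.LeechM
import Cfsg.Agent.Spor.LC.U43

/-!
The McLaughlin group as a rank 3 permutation group.
-/

set_option autoImplicit false
set_option maxRecDepth 100000

namespace Cfsg.Agent.Spor.R3.Mcl

open Cfsg.Agent.Spor Cfsg.Agent.Spor.R3 Cfsg.Agent.Spor.MX Cfsg.Agent.Spor.LC Cfsg.Agent.Spor.Leech MulAction

theorem lev0 : Level (genLt mclK 13) (genLt mclK 7) (mclE 9) 275 :=
  OutC.mcl_level0 e275_injOn mcl_tabs0 (OutC.mcl_hub _ card_McL)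

theorem lev1 : Level (genLt mclK 7) (genLt mclK 6) (mclE 104) 112 :=
  OutC.mcl_level1 e275_injOn mcl_tabs0 (OutC.mcl_hub _ card_McL)

/-- The points. -/
abbrev Pt : Type := orbit mclG (mclE 9)

/-- The numbering of the points. -/
noncomputable def e : ℕ → Pt := orbE mclG mclE 9

/-- The point stabiliser. -/
abbrev H : Type := stabilizer mclG (e 9)

theorem spec : (∀ i < 275, (e i : Λ) = mclE i) ∧ Set.InjOn e (Set.Iio 275) ∧ Tabs e 275 OutC.mcl_T mclK 13 ∧
    ∀ z, ∃ i < 275, e i = z :=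
  orbE_spec mclK_tabs mclE_inj mclK_top (by decide) fun _ hi =>
    orbit_subgroup_subset _ _ (mclK_tabs.mem_orbit_of_level mclE_inj (by decide) lev0 hi)

theorem stab_e {i : ℕ} (hi : i < 275) : stabilizer mclG (e i) = stabilizer mclG (mclE i) := by
  ext y
  rw [mem_stabilizer_iff, mem_stabilizer_iff, ← spec.1 i hi, Subtype.ext_iff]
  rfl

theorem base : Base e 275 OutC.mcl_T mclK 13 7 6 9 104 [104, 68, 62, 80] :=
  ⟨spec.2.1, spec.2.2.2, spec.2.2.1, by decide, by rw [stab_e (by decide), ← lev0.stab, mclK_top, top_inf_eq],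
    by rw [stab_e (by decide), lev1.stab], fun y hy h =>
      OutC.mcl_base1 e275_injOn mcl_tabs0 (OutC.mcl_hub _ card_McL) y hy fun b hb =>
        (stab_e ((lettersLt_iff 275 _).1 (by decide +kernel) b hb)).le (h b hb)⟩

instance : Finite Pt := base.finite

instance : FaithfulSMul mclG Pt := base.faithful

instance : Finite mclG := Nat.finite_of_card_ne_zero (by rw [card_McL]; decide)

theorem card_H : Nat.card H = 3265920 := by
  rw [H, ← base.st0]
  exact OutC.mcl_card1 e275_injOn mcl_tabs0 (OutC.mcl_hub _ card_McL)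

theorem equiv_H (K : Type) [Field K] [Fintype K] (hK : Fintype.card K = 9) : Nonempty (H ≃* PSU 4 K 3) := by
  obtain ⟨f⟩ := nonempty_U43 K hK
  obtain ⟨y, hy⟩ := (e 0).2
  have h1 : stabilizer mclG (mclE 0) = (St3 vU vA vX).subgroupOf (St2 vU vA) := by
    rw [show mclE 0 = vX from e275_zero]
    exact (Subgroup.inf_subgroupOf_left (stabilizer Co0 vX) (St2 vU vA)).symm
  have h2 : mclE 0 = y • mclE 9 := (spec.1 0 (by decide)).symm.trans hy.symm
  exact ⟨((MulEquiv.subgroupCongr (stab_e (by decide))).trans ((stabilizerEquivStabilizer h2).trans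
    (MulEquiv.subgroupCongr h1))).trans
      ((Subgroup.subgroupOfEquivOfLe inf_le_left).trans f)⟩

theorem model : ∃ Γ0 : SimpleGraph Pt, (∀ (y : mclG) x z, Γ0.Adj (y • x) (y • z) ↔ Γ0.Adj x z) ∧
    (∀ i < 275, Γ0.Adj (e 9) (e i) ↔ D i = true) ∧ RK3 H Γ0 (e 9) (1 + 112 + 162) 112 30 56 ∧
      e 104 ∈ side Γ0 (e 9) true ∧ e 1 ∈ side Γ0 (e 9) false :=
  exists_model (base.tabs.mono base.hr) base.inj base.surj base.st0 c_ol0 c_cl0 (by decide) (by decide)
    (by decide +kernel) (by decide +kernel) ((nbeq_iff _ _).1 c_n1) ((nbeq_iff _ _).1 c_n2) rfl (by decide) (by decide)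
    (by decide) fun _ _ _ _ _ h _ _ h' => Srg.srg275_params h h'

variable {Γ0 : SimpleGraph Pt} (h0 : ∀ (y : mclG) x z, Γ0.Adj (y • x) (y • z) ↔ Γ0.Adj x z)
  (hD : ∀ i < 275, Γ0.Adj (e 9) (e i) ↔ D i = true)

include h0 hD

theorem card_aut : Nat.card (Γ0 ≃g Γ0) ≤ 2 * Nat.card mclG := by
  rw [card_McL]
  exact (card_aut_le base.inj base.surj (fun t ht => (inv_adj hD).ins h0 base.tabs ((allL_iff _ _).1 c_ins t ht))
    c_aut).trans (Nat.le_of_ble_eq_true c_prod)

theorem main (hR0 : RK3 H Γ0 (e 9) (1 + 112 + 162) 112 30 56) (hx : e 104 ∈ side Γ0 (e 9) true)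
    (hy : e 1 ∈ side Γ0 (e 9) false) {Ω : Type*} [Finite Ω] [MulAction H Ω] {Γ : SimpleGraph Ω} {a : Ω}
    (hR : RK3 H Γ a (1 + 112 + 162) 112 30 56) : Nonempty (Γ0 ≃g Γ) := by
  have : Fact (Nat.Prime 7) := ⟨by norm_num⟩
  have MX := base.mod c_ol0 c_cl0 (x := 104) (v := 1) (by decide +kernel)
  have MY := base.mod c_ol0 c_cl0 (x := 1) (v := 2) (by decide +kernel)
  have h1 := MX.tabs.mono (m' := 6) (by decide)
  have h2 := MX.tabs.words c_T2
  have h3 := MX.tabs.words_le_stabilizer (by decide) c_f2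
  have hinj := inj_spec (ε := true) h0 base.tabs hD hR0 MX MY hx hy h2 h3 c_ol2 (szOK_spec c_sz2).1 c_inj
  obtain ⟨x, hx', hst⟩ := (exists_clique (p := 3) (j := 6) (J := 40) MX (hR.orb true) (Set.toFinite _)
    ((hR.ncard_side a true).trans ((nbeq_iff _ _).1 c_n1).symm) (by rw [hR.ncard_side]; decide)
    (base.card_stab (OutC.mcl_card2 e275_injOn mcl_tabs0 (OutC.mcl_hub _ card_McL))) (by decide) base.stab c_ol1
    c_cl1 c_sz1 c_ar c_clq).resolve_right (by
      rintro ⟨o, t, a1, a2, a3, a4, -⟩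
      rw [show sz1 1 = 30 by decide +kernel] at a4
      have a5 : o ≤ 4 := a3
      have := Nat.le_of_dvd (Nat.mul_pos (a1.trans a2) a1) a4
      nlinarith)
  obtain ⟨φ, hφ, c, hc, s, hs, -, hS⟩ := exists_sol (p := 7) hR MX hx' hst ((nbeq_iff _ _).1 c_n1) h1 base.stab.le c_ol1
    c_sz1 c_sub1 c_quad (MX.tabs.words c_T3) (pgrp_of MX.tabs base.baseH c_pg) (by decide) c_ol3 c_v3 c_con
    (by decide) (by decide) c_inc rfl c_dfs
  have key : ∀ {Q Q' : ℕ → ℕ} {V : LT}, band (band (enumOK 275 112 inX Q Q') (allLt 7 fun x => lettersLt 7 (V.get x)))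
      (resOK 275 112 7 (fun x => traceP OutC.mcl_T (V.get x)) S Q) = true →
      goodOK OutC.mcl_T 13 275 9 D inX inY (fun i => bit s (labE E3 (Q (P' i)))) 1 uy = true → Nonempty (Γ0 ≃g Γ) :=
    fun a1 a2 => by
      obtain ⟨ψ, φ', b1, b2⟩ := twist_sol MX base.top (hR0.orb _ _ hx ▸ faithful_side hR0 hy hinj) c_res a1 hφ hS
      have b3 := hR.comp ψ
      have b4 := good_spec h0 base.tabs hD a2
      let _ := MulAction.compHom Ω ψ.toMonoidHom
      exact iso_of_good b3 hR0 MX MY hx hy h1 base.stab.le c_ol1 c_sz1 c_sub1 h2 h3 c_ol2 c_sz2 c_sub2 hinj b1 hc b4 b2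
  simp only [memL_iff, sols, List.mem_cons, List.not_mem_nil, or_false] at hs
  rcases hs with rfl | rfl | rfl | rfl
  exacts [key c_tw0 c_good0, key c_tw1 c_good1, key c_tw2 c_good2, key c_tw3 c_good3]

end Cfsg.Agent.Spor.R3.Mcl
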