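import Mathlib
import Cfsg.Agent.Spor.R3.SuzD

/-! Generated by tools/h61/gen.py: checks -/

set_option autoImplicit false
set_option maxRecDepth 100000
set_option linter.unusedVariables false
set_option exponentiation.threshold 100000
set_option Elab.async false

namespace Cfsg.Agent.Spor.R3.Suz

open Cfsg.Agent.Spor Cfsg.Agent.Spor.R3

theorem c_ol0 : allRange 0 1782 (olOK MSuz.ch_T 6 E0 rt0) = true := by decide +kernel

theorem c_cl0 : allRange 0 1782 (olCl MSuz.ch_T 6 E0) = true := by decide +kernel

theorem c_n1 : Nat.beq (count2 1782 fun i => Nat.beq (labE E0 i) 1) 416 = true := by decide +kernel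

theorem c_n2 : Nat.beq (count2 1782 fun i => Nat.beq (labE E0 i) 2) 1365 = true := by decide +kernel

theorem c_ol1 : allRange 0 1782 (olOK MSuz.ch_T 5 E1 rt1) = true := by decide +kernel

theorem c_cl1 : allRange 0 1782 (olCl MSuz.ch_T 5 E1) = true := by decide +kernel

theorem c_sz1 : szOK 1782 7 E1 sz1 = true := by decide +kernel

theorem c_ar : arOK 45 7 1 sz1 rt1 inX = true := by decide +kernel

theorem c_clq : clOK MSuz.ch_T E1 rt1 1782 6 1 wq L0 = true := by decide +kernel

theorem c_sub1 : subOK 7 sz1 (fun v => inX (rt1 v)) (cond false 100 (416 - 96)) 4 = true := by decide +kernel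

theorem c_T2 : allLt 2 (fun j => band (lettersLt 6 (W2.get j)) (allRange 0 1782 fun i => Nat.beq (traceP MSuz.ch_T (W2.get j) i) (T2 j i))) = true := by decide +kernel

theorem c_f2 : allLt 2 (fun j => band (lettersLt 6 (W2.get j)) (Nat.beq (traceP MSuz.ch_T (W2.get j) 127) 127)) = true := by decide +kernel

theorem c_ol2 : allRange 0 1782 (olOK T2 2 E2 rt2) = true := by decide +kernel

theorem c_sz2 : szOK 1782 6 E2 sz2 = true := by decide +kernel

theorem c_sub2 : subOK 6 sz2 (fun v => inY (rt2 v)) (cond (!false) 100 (416 - 96)) 32 = true := by decide +kernel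

theorem c_inj : injOK MSuz.ch_T 12 1782 0 127 6 D inX inY rt2 uy U2 = true := by decide +kernel

theorem c_pg : band (lettersLt 1782 [1, 5, 9, 18]) (allLt 2 fun x =>
    band (band (lettersLt 6 (powW 5 (W3.get x))) (fixesL MSuz.ch_T (powW 5 (W3.get x)) [1, 5, 9, 18])) (allLt 2 fun y =>
      band (lettersLt 6 (appL (W3.get x) (W3.get y))) (band (lettersLt 6 (appL (W3.get y) (W3.get x)))
        (agreeL MSuz.ch_T (appL (W3.get x) (W3.get y)) (appL (W3.get y) (W3.get x)) [1, 5, 9, 18])))) = true := by decide +kernel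

theorem c_T3 : allLt 2 (fun j => band (lettersLt 6 (W3.get j)) (allRange 0 1782 fun i => Nat.beq (traceP MSuz.ch_T (W3.get j) i) (T3 j i))) = true := by decide +kernel

theorem c_ol3 : allRange 0 1782 (olOK T3 2 E3 rt3) = true := by decide +kernel

theorem c_v3 : allRange 0 1782 (fun i => bor (!inX i) (blt (labE E3 i) 57)) = true := by decide +kernel

theorem c_con : conOK MSuz.ch_T E3 6 L C = true := by decide +kernel

theorem c_inc : incOK C 57 I 0 = true := by decide +kernel

theorem c_dfs : dfsOK C 57 10 I (memL sols) = true := by decide +kernel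

theorem c_good : goodOK MSuz.ch_T 12 1782 0 D inX inY (fun i => bit (nat_lit 0x600000601acf9) (labE E3 i)) 1780 ug = true := by decide +kernel


end Cfsg.Agent.Spor.R3.Suz
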