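import Mathlib
import Cfsg.Agent.Spor.R3.SuzD

/-! Generated by tools/h61/gen.py: checks -/

set_option autoImplicit false
set_option maxRecDepth 100000
set_option linter.unusedVariables false
set_option exponentiation.threshold 100000
set_option Elab.async false

namespace Cfsg.Agent.Spor.R3.Suz

open Cfsg.Agent.Spor Cfsg.Agent.Spor.R3

theorem c_quad : quadOK MSuz.ch_T E1 4 1782 6 1 inX false 1782 416 100 96 10 L = true := by decide +kernel

theorem c_ins : allL Ls (insOK MSuz.ch_T 12 1782 [0] D) = true := by decide +kernel

theorem c_aut : autOK 1782 ord pos Ls 0 [] = true := by decide +kernel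

theorem c_prod : Nat.ble (prodK Ls) (2 * 448345497600) = true := by decide +kernel


end Cfsg.Agent.Spor.R3.Suz
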