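import Mathlib
import Cfsg.Agent.Spor.R3.SuzLD

/-! Generated by tools/h61/gen.py: checks -/

set_option autoImplicit false
set_option maxRecDepth 100000
set_option linter.unusedVariables false
set_option exponentiation.threshold 100000
set_option Elab.async false

namespace Cfsg.Agent.Spor.R3.Suz

open Cfsg.Agent.Spor Cfsg.Agent.Spor.R3

theorem c_TL0 : allRange 0 1365 (fun j => force (TL 0 j) fun j' => band (band (blt j' 1365) (lettersLt 1782 (ln.get j)))
      (Nat.beq (maskL (mapL (ln.get j) (MSuz.ch_T 0))) (maskL (ln.get j')))) = true := by decide +kernel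

theorem c_TL1 : allRange 0 1365 (fun j => force (TL 1 j) fun j' => band (band (blt j' 1365) (lettersLt 1782 (ln.get j)))
      (Nat.beq (maskL (mapL (ln.get j) (MSuz.ch_T 1))) (maskL (ln.get j')))) = true := by decide +kernel

theorem c_TL2 : allRange 0 1365 (fun j => force (TL 2 j) fun j' => band (band (blt j' 1365) (lettersLt 1782 (ln.get j)))
      (Nat.beq (maskL (mapL (ln.get j) (MSuz.ch_T 2))) (maskL (ln.get j')))) = true := by decide +kernel

theorem c_TL3 : allRange 0 1365 (fun j => force (TL 3 j) fun j' => band (band (blt j' 1365) (lettersLt 1782 (ln.get j)))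
      (Nat.beq (maskL (mapL (ln.get j) (MSuz.ch_T 3))) (maskL (ln.get j')))) = true := by decide +kernel

theorem c_TL4 : allRange 0 1365 (fun j => force (TL 4 j) fun j' => band (band (blt j' 1365) (lettersLt 1782 (ln.get j)))
      (Nat.beq (maskL (mapL (ln.get j) (MSuz.ch_T 4))) (maskL (ln.get j')))) = true := by decide +kernel

theorem c_TL5 : allRange 0 1365 (fun j => force (TL 5 j) fun j' => band (band (blt j' 1365) (lettersLt 1782 (ln.get j)))
      (Nat.beq (maskL (mapL (ln.get j) (MSuz.ch_T 5))) (maskL (ln.get j')))) = true := by decide +kernel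

theorem c_injL : allRange 0 1365 (fun j => band (lettersLt 1782 (ln.get j))
      (bor (Nat.beq (Nat.succ j) 1365) (blt (maskL (ln.get j)) (maskL (ln.get (Nat.succ j)))))) = true := by decide +kernel

theorem c_L0 : beqL (ln.get 112) L0 = true := by decide +kernel

theorem c_ol0L : allRange 0 1365 (olOK TL 6 E0L rt0L) = true := by decide +kernel

theorem c_cl0L : allRange 0 1365 (olCl TL 6 E0L) = true := by decide +kernel

theorem c_nL : Nat.beq (count2 1365 inL) 1365 = true := by decide +kernel

theorem c_T1L : allLt 2 (fun j => band (lettersLt 6 (W1L.get j)) (allRange 0 1365 fun i => Nat.beq (traceP TL (W1L.get j) i) (T1L j i))) = true := by decide +kernel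

theorem c_f1L : allLt 2 (fun j => band (lettersLt 6 (W1L.get j)) (Nat.beq (traceP TL (W1L.get j) 112) 112)) = true := by decide +kernel

theorem c_ol1L : allRange 0 1365 (olOK T1L 2 E1L rt1L) = true := by decide +kernel

theorem c_sz1L : szOK 1365 4 E1L sz1L = true := by decide +kernel

theorem c_sub1L : subOK 4 sz1L (fun v => inL (rt1L v)) (cond false 100 (416 - 96)) 4 = true := by decide +kernel

theorem c_T3L : allLt 2 (fun j => band (lettersLt 6 (W3.get j)) (allRange 0 1365 fun i => Nat.beq (traceP TL (W3.get j) i) (T3L j i))) = true := by decide +kernel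

theorem c_ol3L : allRange 0 1365 (olOK T3L 2 E3L rt3L) = true := by decide +kernel

theorem c_v3L : allRange 0 1365 (fun i => bor (!inL i) (blt (labE E3L i) 57)) = true := by decide +kernel

theorem c_quadL : quadOK TL E1L 4 1365 6 112 inL false 1782 416 100 96 10 LL = true := by decide +kernel

theorem c_conL : conOK TL E3L 6 LL CL = true := by decide +kernel

theorem c_incL : incOK CL 57 IL 0 = true := by decide +kernel

theorem c_dfsL : dfsOK CL 57 10 IL (memL solsL) = true := by decide +kernel


end Cfsg.Agent.Spor.R3.Suz
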