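import Mathlib
import Cfsg.Agent.Spor.R3.SuzC0
import Cfsg.Agent.Spor.R3.SuzC1
import Cfsg.Agent.Spor.R3.SuzLC0
import Cfsg.Agent.Spor.Suz.G2
import Cfsg.Agent.Chev.FieldMap

/-!
The sporadic Suzuki group as a rank 3 permutation group.
-/

set_option autoImplicit false
set_option maxRecDepth 100000

namespace Cfsg.Agent.Spor.R3.Suz

open Cfsg.Agent.Spor Cfsg.Agent.Spor.R3 Cfsg.Agent.Spor.MSuz MulAction
open scoped Pointwise

theorem params {V : Type*} [Fintype V] {Γ : SimpleGraph V} [DecidableRel Γ.Adj] {l m : ℕ}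
    (h : Γ.IsSRGWith 1782 416 l m) {v w : V} (hvw : Γ.Adj v w) : l = 100 ∧ m = 96 := by
  have h1 := Srg.srg_lt_deg h hvw
  have h2 := h.param_eq _ (by norm_num)
  have h3 : (l = 100 ∧ m = 96) ∨ (l = 205 ∧ m = 64) ∨ (l = 310 ∧ m = 32) ∨ (l = 415 ∧ m = 0) := by omega
  rcases h3 with h3 | ⟨rfl, rfl⟩ | ⟨rfl, rfl⟩ | ⟨rfl, rfl⟩
  · exact h3
  · exact absurd (Srg.srg_trace_int h (p := 61) (by norm_num) 21 18 (by decide) (by decide) (by decide)) (by decide)
  · have := Srg.srg_local h hvw (by norm_num); omega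
  · exact absurd (Srg.srg_trace_int h (p := 139) (by norm_num) 1 0 (by decide) (by decide) (by decide)) (by decide)

/-- The point stabiliser. -/
noncomputable abbrev St : Subgroup Cfsg.Spor.Suz := stabilizer Cfsg.Spor.Suz (finE 1782 0)

theorem base : Base (finE 1782) 1782 ch_T k 12 6 5 0 1 [1, 5, 9, 18] :=
  ⟨finE_injOn _, fun z => ⟨z, z.2, finE_coe z⟩, tabs, by decide, by rw [← level0.stab, topk, top_inf_eq],
    (ch_level1 (finE_injOn _) tabs0 ub7).stab, ch_base1 (finE_injOn _) tabs0 ub7⟩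

instance : FaithfulSMul Cfsg.Spor.Suz (Fin 1782) := base.faithful

instance : IsPretransitive Cfsg.Spor.Suz (Fin 1782) := IsPretransitive.of_orbit transitive

theorem card_St : Nat.card St = 251596800 := by rw [St, ← base.st0, ← H_eq_k, card_H]

theorem equiv_St (K : Type) [Field K] [Fintype K] (hK : Fintype.card K = 4) : Nonempty (St ≃* Lie.chevG2.group K) := by
  obtain ⟨f⟩ := nonempty_G24
  obtain ⟨σ⟩ := Cl.nonempty_ringEquiv_GF4 K hK
  exact ⟨(MulEquiv.subgroupCongr (H_eq_k.trans base.st0).symm).trans (f.trans (Chev.fieldEquiv Lie.chevG2 σ).symm)⟩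

theorem model : ∃ Γ0 : SimpleGraph (Fin 1782), (∀ (y : Cfsg.Spor.Suz) x z, Γ0.Adj (y • x) (y • z) ↔ Γ0.Adj x z) ∧
    (∀ i < 1782, Γ0.Adj (finE 1782 0) (finE 1782 i) ↔ D i = true) ∧
      RK3 St Γ0 (finE 1782 0) (1 + 416 + 1365) 416 100 96 ∧
      finE 1782 127 ∈ side Γ0 (finE 1782 0) true ∧ finE 1782 1 ∈ side Γ0 (finE 1782 0) false :=
  exists_model (base.tabs.mono base.hr) base.inj base.surj base.st0 c_ol0 c_cl0 (by decide) (by decide)
    (by decide +kernel) (by decide +kernel) ((nbeq_iff _ _).1 c_n1) ((nbeq_iff _ _).1 c_n2) rfl (by decide) (by decide)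
    (by decide) fun _ _ _ _ _ h _ _ h' => params h h'

theorem MX : Mod (finE 1782) 1782 ch_T (subG St k) 6 1 inX := base.mod c_ol0 c_cl0 (by decide +kernel)

theorem MY : Mod (finE 1782) 1782 ch_T (subG St k) 6 127 inY := base.mod c_ol0 c_cl0 (by decide +kernel)

theorem ML : Mod (fun j => finE 1782 '' {i | i ∈ ln.get j}) 1365 TL (subG St k) 6 112 inL :=
  mod_top (tabs_sets MX.tabs fun x hx => by
    interval_cases x
    exacts [c_TL0, c_TL1, c_TL2, c_TL3, c_TL4, c_TL5]) (injOn_sets base.inj c_injL) base.top c_ol0L c_cl0L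
    (by decide +kernel)

theorem pgrp : IsPGroup 5 (genLt (fun x => evalW (subG St k) (W3.get x)) 2) := pgrp_of MX.tabs base.baseH c_pg

/-- The stabiliser of a vertex on the larger side is the stabiliser of a point, not of a line. -/
theorem exists_stab {Ω : Type*} [Finite Ω] [MulAction St Ω] {Γ : SimpleGraph Ω} {a : Ω}
    (hR : RK3 St Γ a (1 + 416 + 1365) 416 100 96) : ∃ x ∈ side Γ a false, stabilizer St x ≤ stabilizer St (finE 1782 1) := by
  have : Fact (Nat.Prime 5) := ⟨by norm_num⟩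
  refine (exists_clique (p := 2) (j := 12) (J := 45) MX (hR.orb false) (Set.toFinite _)
    ((hR.ncard_side a false).trans ((nbeq_iff _ _).1 c_n2).symm) (by rw [hR.ncard_side]; decide)
    (base.card_stab (ch_card2 (finE_injOn _) tabs0 ub7)) (by decide) base.stab c_ol1 c_cl1 c_sz1 c_ar
    c_clq).resolve_right ?_
  rintro ⟨o, t, a1, a2, a3, a4, a5⟩
  rw [show sz1 1 = 20 by decide +kernel] at a4
  have a6 : o ≤ 5 := a3
  have a7 := Nat.le_of_dvd (Nat.mul_pos (a1.trans a2) a1) a4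
  obtain ⟨x, hx, hst⟩ := a5 (show o = 5 by by_contra; nlinarith [show o ≤ 4 by omega, show t ≤ 3 by omega])
  rw [← eq_of_beqL c_L0] at hst
  obtain ⟨-, -, -, -, s, hs, -⟩ := exists_sol (p := 5) hR ML hx hst ((nbeq_iff _ _).1 c_nL) (ML.tabs.words c_T1L)
    (ML.tabs.words_le_stabilizer (by decide) c_f1L) c_ol1L c_sz1L c_sub1L c_quadL (ML.tabs.words c_T3L) pgrp
    (by decide) c_ol3L c_v3L c_conL (by decide) (by decide) c_incL rfl c_dfsL
  exact absurd ((memL_iff _ _).1 hs) List.not_mem_nil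

variable {Γ0 : SimpleGraph (Fin 1782)} (h0 : ∀ (y : Cfsg.Spor.Suz) x z, Γ0.Adj (y • x) (y • z) ↔ Γ0.Adj x z)
  (hD : ∀ i < 1782, Γ0.Adj (finE 1782 0) (finE 1782 i) ↔ D i = true)

include h0 hD

theorem card_aut : Nat.card (Γ0 ≃g Γ0) ≤ 2 * Nat.card Cfsg.Spor.Suz := by
  rw [card]
  exact (card_aut_le base.inj base.surj (fun t ht => (inv_adj hD).ins h0 base.tabs ((allL_iff _ _).1 c_ins t ht))
    c_aut).trans (Nat.le_of_ble_eq_true c_prod)

theorem main (hR0 : RK3 St Γ0 (finE 1782 0) (1 + 416 + 1365) 416 100 96)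
    (hy : finE 1782 127 ∈ side Γ0 (finE 1782 0) true) (hx : finE 1782 1 ∈ side Γ0 (finE 1782 0) false)
    {Ω : Type*} [Finite Ω] [MulAction St Ω] {Γ : SimpleGraph Ω} {a : Ω}
    (hR : RK3 St Γ a (1 + 416 + 1365) 416 100 96) : Nonempty (Γ0 ≃g Γ) := by
  have : Fact (Nat.Prime 5) := ⟨by norm_num⟩
  have h1 := MX.tabs.mono (m' := 5) (by decide)
  have h2 := MX.tabs.words c_T2
  have h3 := MX.tabs.words_le_stabilizer (by decide) c_f2
  obtain ⟨x, hx', hst⟩ := exists_stab hR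
  obtain ⟨φ, hφ, c, hc, s, hs, -, hS⟩ := exists_sol (p := 5) hR MX hx' hst ((nbeq_iff _ _).1 c_n2) h1 base.stab.le c_ol1
    c_sz1 c_sub1 c_quad (MX.tabs.words c_T3) pgrp (by decide) c_ol3 c_v3 c_con (by decide) (by decide) c_inc rfl c_dfs
  obtain rfl := List.mem_singleton.1 ((memL_iff _ _).1 hs)
  have h4 := good_spec h0 base.tabs hD c_good
  exact iso_of_good hR hR0 MX MY hx hy h1 base.stab.le c_ol1 c_sz1 c_sub1 h2 h3 c_ol2 c_sz2 c_sub2
    (inj_spec (ε := false) h0 base.tabs hD hR0 MX MY hx hy h2 h3 c_ol2 (szOK_spec c_sz2).1 c_inj) hφ hc h4 hS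

end Cfsg.Agent.Spor.R3.Suz
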