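import Mathlib
import Cfsg.Agent.Spor.R3.RuD

/-! Generated by tools/h61/gen.py: checks -/

set_option autoImplicit false
set_option maxRecDepth 100000
set_option linter.unusedVariables false
set_option exponentiation.threshold 100000
set_option Elab.async false

namespace Cfsg.Agent.Spor.R3.Ru

open Cfsg.Agent.Spor Cfsg.Agent.Spor.R3

theorem c_quad : quadOK MRu.ch_T E1 14 4060 6 28 inX true 4060 1755 730 780 5 L = true := by decide +kernel

theorem c_dfs : dfsOK C 75 5 I (memL sols) = true := by decide +kernel

theorem c_inc : incOK C 75 I 0 = true := by decide +kernel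


end Cfsg.Agent.Spor.R3.Ru
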