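import Mathlib
import Cfsg.Agent.Spor.R3.RuD

/-! Generated by tools/h61/gen.py: checks -/

set_option autoImplicit false
set_option maxRecDepth 100000
set_option linter.unusedVariables false
set_option exponentiation.threshold 100000
set_option Elab.async false

namespace Cfsg.Agent.Spor.R3.Ru

open Cfsg.Agent.Spor Cfsg.Agent.Spor.R3

theorem c_cnt : cntOK MRu.ch_T 9 4060 0 28 8 D rt1 ux U1 = true := by decide +kernel

theorem c_ins0 : allL (Ls.take 12) (fun t => bor (insOK MRu.ch_T 9 4060 [0] D t)
    (insOK MRu.ch_T 9 4060 [0, 28] (fun i => Nat.beq (labE E1 i) 1) t)) = true := by decide +kernel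

theorem c_ins1 : allL (Ls.drop 12) (fun t => bor (insOK MRu.ch_T 9 4060 [0] D t)
    (insOK MRu.ch_T 9 4060 [0, 28] (fun i => Nat.beq (labE E1 i) 1) t)) = true := by decide +kernel

theorem c_aut : autOK 4060 ord pos Ls 0 [] = true := by decide +kernel

theorem c_prod : Nat.ble (prodK Ls) (2 * 145926144000) = true := by decide +kernel


end Cfsg.Agent.Spor.R3.Ru
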