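import Mathlib
import Cfsg.Agent.Spor.R3.RuC0
import Cfsg.Agent.Spor.R3.RuC1
import Cfsg.Agent.Spor.R3.RuC2
import Cfsg.Agent.Spor.R3.RuF
import Cfsg.Agent.Spor.Ru.Main
import Cfsg.Agent.Chev.F4TwTits2

/-!
The Rudvalis group as a rank 3 permutation group.
-/

set_option autoImplicit false
set_option maxRecDepth 100000

namespace Cfsg.Agent.Spor.R3.Ru

open Cfsg.Agent.Spor Cfsg.Agent.Spor.R3 Cfsg.Agent.Spor.MRu MulAction Cfsg.Agent.Chev.F4T
open scoped Matrix

theorem params {V : Type*} [Fintype V] {Γ : SimpleGraph V} [DecidableRel Γ.Adj] {l m : ℕ}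
    (h : Γ.IsSRGWith 4060 1755 l m) {v w : V} (hvw : Γ.Adj v w) : l = 730 ∧ m = 780 := by
  have h1 := Srg.srg_lt_deg h hvw
  have h2 := h.param_eq _ (by norm_num)
  obtain ⟨t, ht⟩ : 195 ∣ m := (show Nat.Coprime 195 256 by norm_num).dvd_of_dvd_mul_left ⟨1754 - l, by omega⟩
  have h4 : l + 256 * t = 1754 := by omega
  have h3 : (l = 730 ∧ m = 780) ∨ (l = 218 ∧ m = 1170) ∨ (l = 474 ∧ m = 975) ∨ (l = 986 ∧ m = 585) ∨
      (l = 1242 ∧ m = 390) ∨ (l = 1498 ∧ m = 195) ∨ (l = 1754 ∧ m = 0) := by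
    have h5 : t ≤ 6 := by omega
    clear h1 h2
    interval_cases t <;> omega
  rcases h3 with h3 | ⟨rfl, rfl⟩ | ⟨rfl, rfl⟩ | ⟨rfl, rfl⟩ | ⟨rfl, rfl⟩ | ⟨rfl, rfl⟩ | ⟨rfl, rfl⟩
  · exact h3
  · exact absurd (Srg.srg_trace_int h (p := 11) (by norm_num) 3 2 (by decide) (by decide) (by decide)) (by decide)
  · exact absurd (Srg.srg_trace_int h (p := 12101) (by norm_num) 6301 8272 (by decide) (by decide) (by decide))
      (by decide)
  · exact absurd (Srg.srg_trace_int h (p := 127) (by norm_num) 117 87 (by decide) (by decide) (by decide)) (by decide)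
  · exact absurd (Srg.srg_trace_int h (p := 59) (by norm_num) 46 35 (by decide) (by decide) (by decide)) (by decide)
  · exact absurd (Srg.srg_trace_int h (p := 1021) (by norm_num) 880 833 (by decide) (by decide) (by decide))
      (by decide)
  · exact absurd (Srg.srg_trace_int h (p := 439) (by norm_num) 1 0 (by decide) (by decide) (by decide)) (by decide)

/-- The point stabiliser. -/
noncomputable abbrev St : Subgroup Cfsg.Spor.Ru := stabilizer Cfsg.Spor.Ru (finE 4060 0)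

theorem base : Base (finE 4060) 4060 ch_T k 9 6 5 0 28 [28, 50, 33] :=
  ⟨finE_injOn _, fun z => ⟨z, z.2, finE_coe z⟩, tabs, by decide, by rw [← level0.stab, topk, top_inf_eq],
    (ch_level1 (finE_injOn _) tabs0 ub2).stab, ch_base1 (finE_injOn _) tabs0 ub2⟩

instance : FaithfulSMul Cfsg.Spor.Ru (Fin 4060) := base.faithful

instance : IsPretransitive Cfsg.Spor.Ru (Fin 4060) := IsPretransitive.of_orbit transitive

theorem card_St : Nat.card St = 35942400 := by rw [St, ← base.st0, ← H_eq_k, card_H]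

theorem MX : Mod (finE 4060) 4060 ch_T (subG St k) 6 28 inX := base.mod c_ol0 c_cl0 (by decide +kernel)

theorem MY : Mod (finE 4060) 4060 ch_T (subG St k) 6 1 inY := base.mod c_ol0 c_cl0 (by decide +kernel)

local notation "F2" => Chev.F4T.T2

/-- The action of the Ree group on row vectors. -/
@[reducible] noncomputable def vecAct : MulAction (F2).Fix (Fin 26 → ZMod 2) where
  smul g v := v ᵥ* ρ (g⁻¹).1
  one_smul v := by
    show v ᵥ* ρ ((1 : (F2).Fix)⁻¹).1 = v
    rw [inv_one, OneMemClass.coe_one, ρ_one, Matrix.vecMul_one]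
  mul_smul a b v := by
    show v ᵥ* ρ ((a * b)⁻¹).1 = v ᵥ* ρ (b⁻¹).1 ᵥ* ρ (a⁻¹).1
    rw [mul_inv_rev, Subgroup.coe_mul, ρ_mul ((F2).mem_Fix.1 (b⁻¹).2).1 ((F2).mem_Fix.1 (a⁻¹).2).1, Matrix.vecMul_vecMul]

theorem equiv_St : Nonempty (St ≃* Lie.twistedF4 (ZMod 2) 1) := by
  rw [twistedF4_two]
  let _ := vecAct
  have h1 : Tabs (fun i => toV (ZMod 2) 26 (fP i)) 1755 fS (fun x => (F2).hF [x]) 4 := fun x hx i hi => by
    have h2 : allRange 0 1755 (fun i => force (fS x i) fun j => band (blt j 1755)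
        (Nat.beq (rowMul (fP j) (tabG x)) (fP i))) = true := by
      interval_cases x
      exacts [c_fv0, c_fv1, c_fv2, c_fv3]
    have h3 := allRange_zero h2 i hi
    rw [force_eq, band_iff, blt_iff, nbeq_iff] at h3
    refine ⟨h3.1, smul_eq_iff_eq_inv_smul _ |>.2 ?_⟩
    show toV _ 26 (fP i) = toV _ 26 (fP (fS x i)) ᵥ* ρ (((F2).hF [x])⁻¹⁻¹).1
    rw [inv_inv, ← h3.2, toV_rowMul 26 _ (length_tabG x), Tw.coe_hF, hw_cons, hw_nil, mul_one, ρ_gen]
  have h2 : Set.InjOn (fun i => toV (ZMod 2) 26 (fP i)) (Set.Iio 1755) := by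
    have h3 := allRange_zero c_fs
    simp only [band_iff, bor_iff, blt_iff, nbeq_iff] at h3
    have h4 : StrictMonoOn fP (Set.Iio 1755) := fun a _ b hb hab => by
      induction b with
      | zero => omega
      | succ b ih =>
        have hb' : b + 1 < 1755 := hb
        have h5 := (h3 b (by omega)).2.resolve_left (by omega)
        rcases Nat.lt_succ_iff_lt_or_eq.1 hab with h6 | rfl
        exacts [(ih (by show b < 1755; omega) h6).trans h5, h5]
    exact fun i hi j hj h => h4.injOn hi hj (toV_inj (h3 i hi).1 (h3 j hj).1 h)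
  have h3 : genLt (fun x => (F2).hF [x]) 4 = ⊤ := by
    have h4 := fun x => mem_genLt (fun x => (F2).hF [x]) (m := 4) (x := x)
    refine (F2).eq_top_of_two (by decide) ((F2).hF_x ▸ h4 0 (by decide)) ((F2).hF_y ▸ h4 1 (by decide)) fun j => ?_
    rw [show (F2).tF j = (F2).hF [j.val + 2] from Subtype.ext (by
      rw [Tw.coe_hF, hw_cons, hw_nil, mul_one]
      fin_cases j <;> rfl)]
    exact h4 _ (by omega)
  obtain ⟨ψ, -, -, a3⟩ := exists_hom_of_tabs h1 h2 ((MX.tabs.wordsT (ws := fW) (by decide +kernel)).restrict_each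
    ((allLt_iff _ _).1 c_fr)) (injOn_restrict base.inj c_fq) fun y _ h => base.baseH y (base.top ▸ trivial) (by
      have h4 : ∀ i < 1755, ∀ p, fQ i = p → y • finE 4060 p = finE 4060 p := fun i hi p hp => hp ▸ h i hi
      simp only [List.mem_cons, List.not_mem_nil, or_false, forall_eq_or_imp, forall_eq]
      exact ⟨h4 0 (by decide) _ (by decide +kernel), h4 1369 (by decide) _ (by decide +kernel),
        h4 121 (by decide) _ (by decide +kernel)⟩)
  let χ : (F2).Fix →* St := ψ.comp ((MonoidHom.id _).codRestrict _ fun y => h3 ▸ Subgroup.mem_top y)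
  have h4 : Function.Injective χ := by
    rw [← MonoidHom.ker_eq_bot_iff]
    by_contra h5
    have h6 : χ ((F2).hF [0]) = 1 := (F2).comm_le_of_normal (by decide) _ inferInstance h5 ((F2).hF_x ▸ (F2).xF_mem_comm)
    have h7 := (a3 ⟨(F2).hF [0], h3 ▸ Subgroup.mem_top _⟩ 0 (by decide) 0 (by decide)).2 (by
      change χ ((F2).hF [0]) • _ = _
      rw [h6, one_smul])
    exact absurd (h2 (h1 0 (by decide) 0 (by decide)).1 (show 0 < 1755 by decide)
      ((h1 0 (by decide) 0 (by decide)).2.symm.trans h7)) (by decide +kernel)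
  exact ⟨(MulEquiv.ofBijective χ (h4.bijective_of_nat_card_le (by
    rw [card_St, (F2).card_Fix, Nat.card_zmod]; decide))).symm⟩

theorem model : ∃ Γ0 : SimpleGraph (Fin 4060), (∀ (y : Cfsg.Spor.Ru) x z, Γ0.Adj (y • x) (y • z) ↔ Γ0.Adj x z) ∧
    (∀ i < 4060, Γ0.Adj (finE 4060 0) (finE 4060 i) ↔ D i = true) ∧
      RK3 St Γ0 (finE 4060 0) (1 + 1755 + 2304) 1755 730 780 ∧
      finE 4060 28 ∈ side Γ0 (finE 4060 0) true ∧ finE 4060 1 ∈ side Γ0 (finE 4060 0) false :=
  exists_model (base.tabs.mono base.hr) base.inj base.surj base.st0 c_ol0 c_cl0 (by decide) (by decide)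
    (by decide +kernel) (by decide +kernel) ((nbeq_iff _ _).1 c_n1) ((nbeq_iff _ _).1 c_n2) rfl (by decide) (by decide)
    (by decide) fun _ _ _ _ _ h _ _ h' => params h h'

variable {Γ0 : SimpleGraph (Fin 4060)} (h0 : ∀ (y : Cfsg.Spor.Ru) x z, Γ0.Adj (y • x) (y • z) ↔ Γ0.Adj x z)
  (hD : ∀ i < 4060, Γ0.Adj (finE 4060 0) (finE 4060 i) ↔ D i = true)

include h0 hD

theorem card_aut : Nat.card (Γ0 ≃g Γ0) ≤ 2 * Nat.card Cfsg.Spor.Ru := by
  rw [card]
  have h1 := inv_count base.inj base.surj h0 base.tabs (by decide) hD (by decide)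
    ((base.st1.ge.trans inf_le_left).trans base.st0.le) (base.st1.ge.trans inf_le_right) c_ol1 (szOK_spec c_sz1).1
    (by decide) (by decide +kernel) c_cnt
  refine (card_aut_le base.inj base.surj (fun t ht => ?_) c_aut).trans (Nat.le_of_ble_eq_true c_prod)
  rw [← List.take_append_drop 12 Ls, List.mem_append] at ht
  exact ((bor_iff _ _).1 (ht.elim ((allL_iff _ _).1 c_ins0 t) ((allL_iff _ _).1 c_ins1 t))).elim
    ((inv_adj hD).ins h0 base.tabs) (h1.ins h0 base.tabs)

theorem main (hR0 : RK3 St Γ0 (finE 4060 0) (1 + 1755 + 2304) 1755 730 780)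
    (hx : finE 4060 28 ∈ side Γ0 (finE 4060 0) true) (hy : finE 4060 1 ∈ side Γ0 (finE 4060 0) false)
    {Ω : Type*} [Finite Ω] [MulAction St Ω] {Γ : SimpleGraph Ω} {a : Ω}
    (hR : RK3 St Γ a (1 + 1755 + 2304) 1755 730 780) : Nonempty (Γ0 ≃g Γ) := by
  have : Fact (Nat.Prime 5) := ⟨by norm_num⟩
  have : Fact (Nat.Prime 13) := ⟨by norm_num⟩
  have h1 := MX.tabs.mono (m' := 5) (by decide)
  have h2 := MX.tabs.words c_T2
  have h3 := MX.tabs.words_le_stabilizer (by decide) c_f2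
  have h4 := base.card_stab (ch_card2 (finE_injOn _) tabs0 ub2)
  obtain ⟨x, hx', hst⟩ := (exists_clique (p := 2) (j := 12) (J := 5) MX (hR.orb true) (Set.toFinite _)
    ((hR.ncard_side a true).trans ((nbeq_iff _ _).1 c_n1).symm) (by rw [hR.ncard_side]; decide) h4 (by decide)
    base.stab c_ol1 c_cl1 c_sz1 c_ar c_clq).resolve_right (by
      rintro ⟨o, t, a1, a2, a3, a4, -⟩
      rw [show sz1 1 = 10 by decide +kernel] at a4
      have a5 : o ≤ 3 := a3
      have := Nat.le_of_dvd (Nat.mul_pos (a1.trans a2) a1) a4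
      nlinarith)
  obtain ⟨φ, hφ, c, hc, s, hs, hf, hS⟩ := exists_sol (p := 5) hR MX hx' hst ((nbeq_iff _ _).1 c_n1) h1 base.stab.le
    c_ol1 c_sz1 c_sub1 c_quad (MX.tabs.words c_T3) (pgrp_of MX.tabs base.baseH c_pg) (by decide) c_ol3 c_v3 c_con
    (by decide) (by decide) c_inc rfl c_dfs
  have good : ∀ {y : ℕ} {u : List ℕ}, goodOK ch_T 9 4060 0 D inX inY (fun i => bit s (labE E3 i)) y u = true →
      Nonempty (Γ0 ≃g Γ) := fun h => by
    have h5 := good_spec h0 base.tabs hD h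
    exact iso_of_good hR hR0 MX MY hx hy h1 base.stab.le c_ol1 c_sz1 c_sub1 h2 h3 c_ol2 c_sz2 c_sub2
      (inj_spec (ε := true) h0 base.tabs hD hR0 MX MY hx hy h2 h3 c_ol2 (szOK_spec c_sz2).1 c_inj) hφ hc h5 hS
  have bad : ∀ {z : ℕ}, badOK ch_T E3 rt3 4060 6 28 75 13 inX PR U3 s z = true → Nonempty (Γ0 ≃g Γ) := fun h => by
    have h5 := ncard_mul_card (H := St) c
    rw [hR.orb _ c hc, hR.ncard_side, card_St] at h5
    exact (not_bad hR MX hφ (by decide) base.stab c_pr (MX.tabs.words c_T3) c_ol3 c_v3 hf hS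
      (by change 2304 * _ = _ at h5; omega) (by rw [h4]; decide) h).elim
  simp only [memL_iff, sols, List.mem_cons, List.not_mem_nil, or_false] at hs
  rcases hs with rfl | rfl | rfl | rfl | rfl | rfl | rfl | rfl
  exacts [good c_s0, bad c_s1, bad c_s2, good c_s3, bad c_s4, good c_s5, good c_s6, bad c_s7]

end Cfsg.Agent.Spor.R3.Ru
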