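import Mathlib
import Cfsg.Agent.Spor.Blocks
import Cfsg.Agent.Spor.Comp.Iso2

/-!
Recognition of rank 3 groups, part 1: fixed points, equivariant maps, orbit labels and invariant sets.
-/

set_option autoImplicit false

namespace Cfsg.Agent.Spor.R3

open MulAction

section Fix

variable {H Ω α : Type*} [Group H] [MulAction H Ω] [MulAction H α]

theorem exists_fixed {p : ℕ} [Fact p.Prime] {P : Subgroup H} (hP : IsPGroup p P) {Z : Set Ω} (hZ : Z.Finite)
    (hi : ∀ g ∈ P, ∀ z ∈ Z, g • z ∈ Z) (hn : ¬ p ∣ Z.ncard) : ∃ z ∈ Z, ∀ g ∈ P, g • z = z := by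
  let S : SubMulAction P Ω := ⟨Z, fun g z hz => hi g g.2 z hz⟩
  have : Finite S := hZ.to_subtype
  obtain ⟨z, hz⟩ := hP.nonempty_fixed_point_of_prime_not_dvd_card S hn
  exact ⟨z, z.2, fun g hg => congrArg Subtype.val (hz ⟨g, hg⟩)⟩

theorem dvd_ncard [Finite H] {q : ℕ} [Fact q.Prime] {K : Subgroup H} (hK : q ∣ Nat.card K) {Z : Set Ω}
    (hZ : Z.Finite) (hi : ∀ g ∈ K, ∀ z ∈ Z, g • z ∈ Z) (hs : ∀ z ∈ Z, ¬ q ∣ Nat.card (stabilizer H z)) :
    q ∣ Z.ncard := by
  by_contra hn
  obtain ⟨y, hy⟩ := exists_prime_orderOf_dvd_card' q hK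
  have hy' : orderOf (y : H) = q := by rw [Subgroup.orderOf_coe, hy]
  have hP : IsPGroup q (Subgroup.zpowers (y : H)) :=
    IsPGroup.of_card (n := 1) (by rw [Nat.card_zpowers, hy', pow_one])
  obtain ⟨z, hz, h⟩ := exists_fixed hP hZ (fun g hg => hi g ((Subgroup.zpowers_le).2 y.2 hg)) hn
  refine hs z hz ?_
  rw [← hy']
  exact Subgroup.orderOf_dvd_natCard _ (h _ (Subgroup.mem_zpowers _))

theorem ncard_mul_card (x : α) : (orbit H x).ncard * Nat.card (stabilizer H x) = Nat.card H := by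
  rw [← index_stabilizer, Subgroup.index_mul_card]

theorem card_sub (K : Subgroup H) (x : α) :
    Nat.card K = (orbit K x).ncard * Nat.card (K ⊓ stabilizer H x : Subgroup H) := by
  rw [card_eq_of_relIndex (inf_le_left : K ⊓ stabilizer H x ≤ K), relIndex_stabilizer]

theorem card_stab_eq [Finite H] {x0 : α} {x : Ω} (h : (orbit H x).ncard = (orbit H x0).ncard) :
    Nat.card (stabilizer H x) = Nat.card (stabilizer H x0) := by
  have h1 := ncard_mul_card (H := H) x
  have h2 := ncard_mul_card (H := H) x0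
  rw [h, ← h2] at h1
  refine Nat.eq_of_mul_eq_mul_left (Nat.pos_of_ne_zero fun h3 => ?_) h1
  rw [h3, zero_mul] at h2
  exact Nat.card_pos.ne h2

/-- Commuting letters of exponent `p` generate a `p`-group. -/
theorem isPGroup_genLt {p m : ℕ} {g : ℕ → H} (h1 : ∀ x < m, g x ^ p = 1)
    (h2 : ∀ x < m, ∀ y < m, g x * g y = g y * g x) : IsPGroup p (genLt g m) := by
  have h3 : ∀ b ∈ genLt g m, ∀ x < m, Commute (g x) b := fun b hb x hx =>
    (genLt_le (K := Subgroup.centralizer {g x}) (fun y hy => by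
      rw [Subgroup.mem_centralizer_iff]; rintro _ rfl; exact h2 x hx y hy) hb) _ rfl
  have h4 : ∀ b ∈ genLt g m, ∀ a ∈ genLt g m, Commute a b := fun b hb a ha =>
    ((genLt_le (K := Subgroup.centralizer {b}) (fun y hy => by
      rw [Subgroup.mem_centralizer_iff]; rintro _ rfl; exact (h3 _ hb y hy).symm) ha) _ rfl).symm
  have h5 : ∀ a ∈ genLt g m, a ^ p = 1 := by
    intro a ha
    induction ha using Subgroup.closure_induction with
    | mem a ha => obtain ⟨x, hx, rfl⟩ := ha; exact h1 x hx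
    | one => exact one_pow _
    | mul a b ha hb iha ihb => rw [(h4 b hb a ha).mul_pow, iha, ihb, one_mul]
    | inv a _ iha => rw [inv_pow, iha, inv_one]
  exact fun a => ⟨1, Subtype.ext (by simpa using h5 a a.2)⟩

variable (H) in
/-- An equivariant bijection between invariant sets. -/
structure Emb (φ : α → Ω) (X0 : Set α) (X : Set Ω) : Prop where
  bij : Set.BijOn φ X0 X
  eqv : ∀ h : H, ∀ z ∈ X0, φ (h • z) = h • φ z

theorem emb_id (X0 : Set α) : Emb H id X0 X0 := ⟨Set.bijOn_id _, fun _ _ _ => rfl⟩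

theorem exists_emb [Finite H] {x0 : α} {x : Ω} (h1 : stabilizer H x ≤ stabilizer H x0)
    (h2 : (orbit H x).ncard = (orbit H x0).ncard) : ∃ φ, Emb H φ (orbit H x0) (orbit H x) ∧ φ x0 = x := by
  classical
  have h3 : stabilizer H x = stabilizer H x0 := Subgroup.eq_of_le_of_card_ge h1 (card_stab_eq h2).ge
  have h4 : ∀ g g' : H, g • x = g' • x ↔ g • x0 = g' • x0 := fun g g' => by
    rw [← inv_smul_eq_iff, ← mul_smul, ← mem_stabilizer_iff, h3, mem_stabilizer_iff, mul_smul, inv_smul_eq_iff]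
  let φ : α → Ω := fun z => if h : z ∈ orbit H x0 then (Exists.choose h : H) • x else x
  have h5 : ∀ g : H, φ (g • x0) = g • x := fun g => by
    have h6 : g • x0 ∈ orbit H x0 := mem_orbit _ _
    show dite _ _ _ = _
    rw [dif_pos h6, h4]
    exact Exists.choose_spec h6
  refine ⟨φ, ⟨⟨?_, ?_, ?_⟩, ?_⟩, by simpa using h5 1⟩
  · rintro _ ⟨g, rfl⟩; exact ⟨g, (h5 g).symm⟩
  · rintro _ ⟨g, rfl⟩ _ ⟨g', rfl⟩ h; exact (h4 g g').1 ((h5 g).symm.trans (h.trans (h5 g')))
  · rintro _ ⟨g, rfl⟩; exact ⟨_, mem_orbit _ g, h5 g⟩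
  · rintro h _ ⟨g, rfl⟩
    show φ (h • g • x0) = h • φ (g • x0)
    rw [← mul_smul, h5, h5, mul_smul]

/-- Two transitive actions of the same degree prime to `p`: a Sylow subgroup fixes a point in both. -/
theorem exists_orbit [Finite H] {p : ℕ} [Fact p.Prime] {x0 : α} {X : Set Ω} (hX : ∀ x ∈ X, orbit H x = X)
    (hfin : X.Finite) (hc : X.ncard = (orbit H x0).ncard) (hp : ¬ p ∣ X.ncard) :
    ∃ x ∈ X, ¬ p ∣ (orbit (stabilizer H x) x0).ncard ∧
      (orbit (stabilizer H x) x0).ncard ∣ Nat.card (stabilizer H x0) ∧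
      ∀ z : α, (orbit (stabilizer H x0) z).ncard ∣ (orbit (stabilizer H x) x0).ncard *
        (orbit (stabilizer H x ⊓ stabilizer H x0 : Subgroup H) z).ncard := by
  obtain ⟨U⟩ := (inferInstance : Nonempty (Sylow p (stabilizer H x0)))
  obtain ⟨x, hx, h1⟩ := exists_fixed (U.2.map (stabilizer H x0).subtype) hfin
    (fun g _ z hz => hX z hz ▸ mem_orbit z g) hp
  have h2 := card_stab_eq (H := H) (x0 := x0) (x := x) (by rw [hX x hx, hc])
  have h3 := card_sub (stabilizer H x) x0
  rw [h2] at h3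
  refine ⟨x, hx, fun h4 => U.not_dvd_index ?_, ⟨_, h3⟩, fun z => ?_⟩
  · have h5 : (U : Subgroup (stabilizer H x0)).map (stabilizer H x0).subtype ≤ stabilizer H x ⊓ stabilizer H x0 :=
      le_inf h1 (Subgroup.map_subtype_le _)
    obtain ⟨u, hu⟩ := Subgroup.card_dvd_of_le h5
    rw [Subgroup.card_map_of_injective (stabilizer H x0).subtype_injective] at hu
    have h6 := (U : Subgroup (stabilizer H x0)).index_mul_card
    rw [h3, hu, mul_comm (Nat.card _) u, ← mul_assoc] at h6
    rw [Nat.eq_of_mul_eq_mul_right Nat.card_pos h6]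
    exact h4.mul_right u
  · have h5 := card_sub (stabilizer H x0) z
    have h6 := card_sub (stabilizer H x ⊓ stabilizer H x0 : Subgroup H) z
    obtain ⟨u, hu⟩ := Subgroup.card_dvd_of_le
      (inf_le_inf_right _ inf_le_right : (stabilizer H x ⊓ stabilizer H x0) ⊓ stabilizer H z ≤
        stabilizer H x0 ⊓ stabilizer H z)
    rw [h3, h6, hu, mul_comm (Nat.card _) u, ← mul_assoc, ← mul_assoc] at h5
    exact ⟨u, Nat.eq_of_mul_eq_mul_right Nat.card_pos h5⟩

end Fix

/-! ### Orbit labels -/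

/-- The class of `p`, where `E p = 65536 * class + 256 * depth + letter`. -/
def labE (E : ℕ → ℕ) (p : ℕ) : ℕ := Nat.shiftRight (E p) 16

/-- The depth stored in a label. -/
def depE (l : ℕ) : ℕ := Nat.land (Nat.shiftRight l 8) 255

/-- `p` is the root of its class, or a letter moves it to a point of the same class and smaller depth. -/
noncomputable def olOK (T : ℕ → ℕ → ℕ) (m : ℕ) (E rt : ℕ → ℕ) (p : ℕ) : Bool :=
  force (E p) fun l => Bool.rec
    (force (Nat.land l 255) fun x => band (blt x m) (force (E (T x p)) fun l' =>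
      band (blt (depE l') (depE l)) (Nat.beq (Nat.shiftRight l' 16) (Nat.shiftRight l 16))))
    (Nat.beq (rt (Nat.shiftRight l 16)) p) (Nat.beq (depE l) 0)

/-- The letters preserve the class of `p`. -/
noncomputable def olCl (T : ℕ → ℕ → ℕ) (m : ℕ) (E : ℕ → ℕ) (p : ℕ) : Bool :=
  force (labE E p) fun c => allLt m fun x => Nat.beq (labE E (T x p)) c

/-- The sum of `f i` over `i < n`. -/
noncomputable def sumLt (n : ℕ) (f : ℕ → ℕ) : ℕ := Nat.rec 0 (fun i ih => Nat.add ih (f i)) n

theorem sumLt_eq (n : ℕ) (f : ℕ → ℕ) : sumLt n f = ∑ i ∈ Finset.range n, f i := by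
  induction n with
  | zero => rfl
  | succ n ih => rw [Finset.sum_range_succ, ← ih]; rfl

/-- The same sum with two nested loops. -/
noncomputable def sum2 (n : ℕ) (f : ℕ → ℕ) : ℕ :=
  Nat.add (sumLt (Nat.div n 256) fun j => force (Nat.mul j 256) fun base => sumLt 256 fun i => f (Nat.add base i))
    (force (Nat.mul (Nat.div n 256) 256) fun base => sumLt (Nat.mod n 256) fun i => f (Nat.add base i))

theorem sum2_eq (n : ℕ) (f : ℕ → ℕ) : sum2 n f = ∑ i ∈ Finset.range n, f i := by
  have h : ∀ k : ℕ, ∑ j ∈ Finset.range k, ∑ i ∈ Finset.range 256, f (j * 256 + i) =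
      ∑ i ∈ Finset.range (k * 256), f i := fun k => by
    induction k with
    | zero => simp
    | succ k ih => rw [Finset.sum_range_succ, ih, Nat.succ_mul, Finset.sum_range_add]
  unfold sum2
  simp only [force_eq, sumLt_eq, Nat.add_eq, Nat.mul_eq]
  rw [h]
  conv_rhs => rw [← Nat.div_add_mod' n 256, Finset.sum_range_add]
  rfl

open Classical in
/-- The number whose bits below `d` are given by `X`. -/
noncomputable def low (X : ℕ → Prop) (d : ℕ) : ℕ := ∑ v ∈ Finset.range d, if X v then 2 ^ v else 0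

theorem low_lt (X : ℕ → Prop) (d : ℕ) : low X d < 2 ^ d := by
  induction d with
  | zero => simp [low]
  | succ d ih =>
    unfold low at ih ⊢
    rw [Finset.sum_range_succ, pow_succ]
    split_ifs <;> omega

theorem bit_low (X : ℕ → Prop) {d v : ℕ} (h : v < d) : bit (low X d) v = true ↔ X v := by
  rw [bit_eq]
  induction d with
  | zero => omega
  | succ d ih =>
    have h1 := low_lt X d
    have h2 : low X (d + 1) = 2 ^ d * (open Classical in if X d then 1 else 0) + low X d := by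
      unfold low
      rw [Finset.sum_range_succ]
      split_ifs <;> omega
    rw [h2, Nat.testBit_two_pow_mul_add _ h1]
    by_cases h3 : v < d
    · rw [if_pos h3]; exact ih h3
    · obtain rfl : v = d := by omega
      by_cases h4 : X v <;> simp [h4]

/-- The class sizes are `sz v`, all classes are below `r`. -/
noncomputable def szOK (n r : ℕ) (E sz : ℕ → ℕ) : Bool :=
  band (allRange 0 n fun i => blt (labE E i) r)
    (allLt r fun v => Nat.beq (count2 n fun i => Nat.beq (labE E i) v) (sz v))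

/-- The only union of classes inside `reg` of size `d` is `σ`. -/
noncomputable def subOK (r : ℕ) (sz : ℕ → ℕ) (reg : ℕ → Bool) (d σ : ℕ) : Bool :=
  allRange 0 (Nat.shiftLeft 1 r) fun s => bor (Nat.beq s σ) <|
    bor (!Nat.beq (sumLt r fun v => Bool.rec 0 (sz v) (bit s v)) d) (!allLt r fun v => bor (!bit s v) (reg v))

section Lab

variable {G α : Type*} [Group G] [MulAction G α] {e : ℕ → α} {n m : ℕ} {T : ℕ → ℕ → ℕ} {g : ℕ → G}
  {E rt : ℕ → ℕ}

theorem ol_root (h : Tabs e n T g m) (hc : allRange 0 n (olOK T m E rt) = true) {p : ℕ} (hp : p < n) :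
    rt (labE E p) < n ∧ ∃ a ∈ genLt g m, a • e (rt (labE E p)) = e p := by
  induction hd : depE (E p) using Nat.strong_induction_on generalizing p with
  | h d ih =>
    have h1 := allRange_zero hc p hp
    unfold olOK at h1
    rw [force_eq] at h1
    cases h2 : Nat.beq (depE (E p)) 0 with
    | true =>
      rw [h2] at h1
      have h3 : rt (labE E p) = p := (nbeq_iff _ _).1 h1
      rw [h3]
      exact ⟨hp, 1, Subgroup.one_mem _, one_smul _ _⟩
    | false =>
      simp only [h2, force_eq, band_iff, blt_iff, nbeq_iff] at h1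
      obtain ⟨a1, a2, a3⟩ := h1
      obtain ⟨b1, b2⟩ := h _ a1 p hp
      obtain ⟨c1, a, ha, hap⟩ := ih _ (hd ▸ a2) b1 rfl
      have a4 : labE E (T (Nat.land (E p) 255) p) = labE E p := a3
      rw [a4] at c1 hap
      refine ⟨c1, (g (Nat.land (E p) 255))⁻¹ * a, Subgroup.mul_mem _ (Subgroup.inv_mem _ (mem_genLt g a1)) ha, ?_⟩
      rw [mul_smul, hap, inv_smul_eq_iff, b2]

theorem ol_lab (h : Tabs e n T g m) (he : Set.InjOn e (Set.Iio n)) (hc : allRange 0 n (olCl T m E) = true)
    {a : G} (ha : a ∈ genLt g m) {i j : ℕ} (hi : i < n) (hj : j < n) (hij : a • e i = e j) :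
    labE E j = labE E i := by
  have h1 := smul_mem_of_genLt (S := lbl e n (labE E) (labE E i)) (g := g) (m := m)
    (((Set.finite_Iio n).subset fun p hp => hp.1).image e) (by
      rintro x hx _ ⟨p, ⟨hp, hE⟩, rfl⟩
      have h2 := allRange_zero hc p hp
      unfold olCl at h2
      rw [force_eq, allLt_iff] at h2
      exact ⟨T x p, ⟨(h x hx p hp).1, ((nbeq_iff _ _).1 (h2 x hx)).trans hE⟩, (h x hx p hp).2.symm⟩)
    ha _ ⟨i, ⟨hi, rfl⟩, rfl⟩
  rwa [hij, mem_lbl he hj] at h1

theorem ol_orbit (h : Tabs e n T g m) (he : Set.InjOn e (Set.Iio n)) (hc : allRange 0 n (olOK T m E rt) = true)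
    (hd : allRange 0 n (olCl T m E) = true) {i : ℕ} (hi : i < n) :
    orbit (genLt g m) (e i) = e '' {j | j < n ∧ Nat.beq (labE E j) (labE E i) = true} := by
  ext z
  constructor
  · rintro ⟨a, rfl⟩
    obtain ⟨j, hj, h1⟩ := h.smul_mem a.2 hi
    exact ⟨j, ⟨hj, (nbeq_iff _ _).2 (ol_lab h he hd a.2 hi hj h1)⟩, h1.symm⟩
  · rintro ⟨j, ⟨hj, h1⟩, rfl⟩
    obtain ⟨-, a, ha, h2⟩ := ol_root h hc hi
    obtain ⟨-, b, hb, h3⟩ := ol_root h hc hj
    rw [(nbeq_iff _ _).1 h1] at h3
    refine ⟨⟨b * a⁻¹, Subgroup.mul_mem _ hb (Subgroup.inv_mem _ ha)⟩, ?_⟩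
    show (b * a⁻¹) • e i = e j
    rw [mul_smul, ← h2, inv_smul_smul, h3]

theorem szOK_spec {r : ℕ} {sz : ℕ → ℕ} (h : szOK n r E sz = true) :
    (∀ i < n, labE E i < r) ∧ ∀ v < r, count2 n (fun i => Nat.beq (labE E i) v) = sz v := by
  unfold szOK at h
  rw [band_iff, allLt_iff] at h
  exact ⟨fun i hi => (blt_iff _ _).1 (allRange_zero h.1 i hi), fun v hv => (nbeq_iff _ _).1 (h.2 v hv)⟩

/-- A union of classes of given size is determined. -/
theorem sub_unique {r d σ : ℕ} {sz : ℕ → ℕ} {reg : ℕ → Bool} (h1 : szOK n r E sz = true)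
    (h2 : subOK r sz reg d σ = true) {P : ℕ → Prop} (hP : ∀ i < n, P i ↔ P (rt (labE E i)))
    (hr : ∀ v, P (rt v) → reg v = true) (hd : {i | i < n ∧ P i}.ncard = d) {i : ℕ} (hi : i < n) :
    P i ↔ bit σ (labE E i) = true := by
  classical
  obtain ⟨a1, a2⟩ := szOK_spec h1
  have h3 := allRange_zero h2 (low (fun v => P (rt v)) r) (by
    rw [Nat.shiftLeft_eq', Nat.one_shiftLeft]; exact low_lt _ _)
  rw [bor_iff, bor_iff, nbeq_iff] at h3
  rcases h3 with h3 | h3 | h3
  · rw [← h3, bit_low _ (a1 i hi), hP i hi]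
  · exfalso
    rw [Bool.not_eq_true', ← Bool.not_eq_true, nbeq_iff, sumLt_eq] at h3
    apply h3
    have h4 : {i | i < n ∧ P i} = ((Finset.range n).filter P : Finset ℕ) := by ext; simp
    rw [← hd, h4, Set.ncard_coe_finset, Finset.card_eq_sum_card_fiberwise (f := labE E) (t := Finset.range r)
      (fun i hi => by simp at hi ⊢; exact a1 i hi.1)]
    refine Finset.sum_congr rfl fun v hv => ?_
    have hv' := Finset.mem_range.1 hv
    by_cases h5 : P (rt v)
    · rw [(bit_low (fun v => P (rt v)) hv').2 h5, ← a2 v hv', count2_eq, countLt_eq]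
      show Finset.card _ = _
      congr 1
      ext j
      simp only [Finset.mem_filter, Finset.mem_range, nbeq_iff]
      exact ⟨fun h => ⟨⟨h.1, (hP j h.1).2 (h.2 ▸ h5)⟩, h.2⟩, fun h => ⟨h.1.1, h.2⟩⟩
    · rw [Bool.eq_false_iff.2 fun h6 => h5 ((bit_low (fun v => P (rt v)) hv').1 h6)]
      symm
      rw [Finset.card_eq_zero, Finset.filter_eq_empty_iff]
      intro j hj h6
      simp only [Finset.mem_filter, Finset.mem_range] at hj
      exact h5 (h6 ▸ (hP j hj.1).1 hj.2)
  · exfalso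
    rw [Bool.not_eq_true', ← Bool.not_eq_true, allLt_iff] at h3
    refine h3 fun v hv => ?_
    rw [bor_iff]
    by_cases h5 : P (rt v)
    · exact Or.inr (hr v h5)
    · left
      rw [Bool.eq_false_iff.2 fun h6 => h5 ((bit_low (fun v => P (rt v)) hv).1 h6)]
      rfl

end Lab

end Cfsg.Agent.Spor.R3
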