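import Mathlib
import Cfsg.Agent.Spor.R3.Basic

/-!
Recognition of rank 3 groups, part 2: all 0/1 solutions of a system of counting constraints, by a depth-first
search with packed counters.
-/

set_option autoImplicit false

namespace Cfsg.Agent.Spor.R3

/-- The sum of `f t` over a list. -/
noncomputable def sumL {τ : Type} (L : List τ) (f : τ → ℕ) : ℕ := List.rec 0 (fun t _ ih => Nat.add (f t) ih) L

theorem sumL_eq {τ : Type} (L : List τ) (f : τ → ℕ) : sumL L f = (L.map f).sum := by
  induction L with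
  | nil => rfl
  | cons t L ih => rw [List.map_cons, List.sum_cons, ← ih]; rfl

/-- Map over a list. -/
noncomputable def mapL {τ : Type} (L : List τ) (f : τ → ℕ) : List ℕ := List.rec [] (fun t _ ih => f t :: ih) L

theorem mapL_eq {τ : Type} (L : List τ) (f : τ → ℕ) : mapL L f = L.map f := by
  induction L with
  | nil => rfl
  | cons t L ih => rw [List.map_cons, ← ih]; rfl

open Classical in
/-- The value of the literal `P` (if `s` is false) or `¬ P` (if `s` is true). -/
noncomputable def ind (P : Prop) (s : Bool) : ℕ := if (P ↔ s = false) then 1 else 0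

/-- The same for a Boolean. -/
noncomputable def indB (b s : Bool) : ℕ := Bool.rec 1 0 (beqB b s)

theorem ind_eq {P : Prop} {b : Bool} (h : P ↔ b = true) (s : Bool) : ind P s = indB b s := by
  unfold ind
  rw [h]
  cases b <;> cases s <;> simp [indB, beqB]

theorem ind_congr {P Q : Prop} (h : P ↔ Q) (s : Bool) : ind P s = ind Q s := by rw [propext h]

/-- The increment of the two counters of one constraint when the variable `v` gets the value `b`. -/
noncomputable def incC (l : List ℕ) (v : ℕ) (b : Bool) : ℕ :=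
  sumL l fun c => Bool.rec 0 (Bool.rec 1 256 (beqB b (bit c 0))) (Nat.beq (Nat.shiftRight c 1) v)

/-- Packing one number of 16 bits for each constraint. -/
noncomputable def packC {τ : Type} (C : List τ) (f : τ → ℕ) : ℕ :=
  List.rec 0 (fun l _ ih => Nat.add (f l) (Nat.mul 65536 ih)) C

/-- The increment of the state. -/
noncomputable def inc (C : List (List ℕ × List ℕ)) (r v : ℕ) (b : Bool) : ℕ :=
  Nat.add (Bool.rec 0 (Nat.shiftLeft 1 v) b) (Nat.shiftLeft (packC C fun l => incC l.2 v b) r)

/-- The list `I` holds the increments of the variables `v, v + 1, …, r - 1`. -/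
noncomputable def incOK (C : List (List ℕ × List ℕ)) (r : ℕ) (I : List (ℕ × ℕ)) : ℕ → Bool :=
  List.rec (fun v => Nat.beq v r) (fun p _ ih v => band (Nat.beq p.1 (inc C r v false))
    (band (Nat.beq p.2 (inc C r v true)) (force (Nat.succ v) ih))) I

/-- The search. -/
noncomputable def dfs (I : List (ℕ × ℕ)) (gd : ℕ) (acc : ℕ → Bool) : ℕ → Bool :=
  List.rec acc (fun p _ ih st =>
    band (Bool.rec true (ih (Nat.add st p.1)) (Nat.beq (Nat.land (Nat.add st p.1) gd) 0))
      (Bool.rec true (ih (Nat.add st p.2)) (Nat.beq (Nat.land (Nat.add st p.2) gd) 0))) I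

/-- The initial values of the counters. -/
noncomputable def initC (ρ : ℕ) (l : List ℕ × List ℕ) : ℕ :=
  Nat.add (Nat.sub 127 ρ) (Nat.mul 256 (Nat.sub (Nat.add 127 ρ) (sumL l.2 fun _ => 1)))

/-- The whole check. -/
noncomputable def dfsOK (C : List (List ℕ × List ℕ)) (r ρ : ℕ) (I : List (ℕ × ℕ)) (acc : ℕ → Bool) : Bool :=
  force (Nat.shiftLeft (packC C fun _ => 32896) r) fun gd =>
    force (Nat.shiftLeft (packC C (initC ρ)) r) fun st =>
    dfs I gd (fun s => acc (Nat.mod s (Nat.shiftLeft 1 r))) st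

theorem shl_eq (a k : ℕ) : Nat.shiftLeft a k = 2 ^ k * a := by rw [Nat.shiftLeft_eq', Nat.shiftLeft_eq, mul_comm]

theorem land_split {k a g : ℕ} (ha : a < 2 ^ k) (hg : g < 2 ^ k) (x y : ℕ) :
    (2 ^ k * x + a) &&& (2 ^ k * y + g) = 2 ^ k * (x &&& y) + (a &&& g) := by
  refine Nat.eq_of_testBit_eq fun i => ?_
  rw [Nat.testBit_and, Nat.testBit_two_pow_mul_add _ ha, Nat.testBit_two_pow_mul_add _ hg,
    Nat.testBit_two_pow_mul_add _ (lt_of_le_of_lt Nat.and_le_left ha)]
  split_ifs <;> simp [Nat.testBit_and]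

theorem land_128 {a : ℕ} (h : a < 128) : a &&& 128 = 0 := by
  have := land_split (k := 7) h (by norm_num : 0 < 2 ^ 7) 0 1
  simpa using this

theorem sum_incC (X : ℕ → Prop) [DecidablePred X] (d : ℕ) (l : List ℕ) :
    ∃ o z, ∑ v ∈ Finset.range d, incC l v (decide (X v)) = o + 256 * z ∧
      o ≤ (l.map fun c => ind (X (c / 2)) (bit c 0)).sum ∧
      z + (l.map fun c => ind (X (c / 2)) (bit c 0)).sum ≤ l.length := by
  induction l with
  | nil => exact ⟨0, 0, by simp [incC, sumL], by simp, by simp⟩
  | cons c l ih =>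
    obtain ⟨o, z, h1, h2, h3⟩ := ih
    have h4 : ∀ v b, incC (c :: l) v b =
        (if c / 2 = v then (Bool.rec 1 256 (beqB b (bit c 0)) : ℕ) else 0) + incC l v b := fun v b => by
      show (Bool.rec 0 _ (Nat.beq (Nat.shiftRight c 1) v) : ℕ) + _ = _
      rw [show Nat.shiftRight c 1 = c / 2 from Nat.shiftRight_eq_div_pow c 1]
      by_cases h : c / 2 = v
      · rw [if_pos h, (nbeq_iff _ _).2 h]; rfl
      · rw [if_neg h, Bool.eq_false_iff.2 fun h5 => h ((nbeq_iff _ _).1 h5)]; rfl
    simp only [h4, Finset.sum_add_distrib, Finset.sum_ite_eq, h1, List.map_cons, List.sum_cons, List.length_cons]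
    rw [ind_eq (b := decide (X (c / 2))) decide_eq_true_iff.symm, indB]
    cases beqB (decide (X (c / 2))) (bit c 0)
    · split_ifs
      · exact ⟨o + 1, z, by simp only; omega, by simp only; omega, by simp only; omega⟩
      · exact ⟨o, z, by omega, by simp only; omega, by simp only; omega⟩
    · split_ifs
      · exact ⟨o, z + 1, by simp only; omega, by simp only; omega, by simp only; omega⟩
      · exact ⟨o, z, by omega, by simp only; omega, by simp only; omega⟩

theorem land_pack (X : ℕ → Prop) [DecidablePred X] (d ρ : ℕ) (hρ : ρ ≤ 127) (C : List (List ℕ × List ℕ))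
    (hC : ∀ l ∈ C, (l.2.map fun c => ind (X (c / 2)) (bit c 0)).sum = ρ ∧ l.2.length ≤ 127) :
    (packC C (initC ρ) + ∑ v ∈ Finset.range d, packC C fun l => incC l.2 v (decide (X v))) &&& (packC C fun _ => 32896) = 0 := by
  induction C with
  | nil => simp [packC]
  | cons l C ih =>
    have h1 : ∀ f : List ℕ × List ℕ → ℕ, packC (l :: C) f = f l + 65536 * packC C f := fun _ => rfl
    obtain ⟨o, z, h2, h3, h4⟩ := sum_incC X d l.2
    obtain ⟨h5, h6⟩ := hC l (by simp)
    rw [h5] at h3 h4
    have h7 : initC ρ l = 127 - ρ + 256 * (127 + ρ - l.2.length) := by rw [initC, sumL_eq]; simp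
    simp only [h1, Finset.sum_add_distrib, h2, ← Finset.mul_sum, h7]
    have h8 := land_split (k := 16) (a := 2 ^ 8 * (127 + ρ - l.2.length + z) + (127 - ρ + o)) (g := 2 ^ 8 * 128 + 128)
      (by omega) (by norm_num) (packC C (initC ρ) +
        ∑ v ∈ Finset.range d, packC C fun l => incC l.2 v (decide (X v))) (packC C fun _ => 32896)
    rw [ih fun l hl => hC l (by simp [hl]), land_split (k := 8) (by omega) (by norm_num), land_128 (by omega),
      land_128 (by omega)] at h8
    simp only [mul_zero, add_zero] at h8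
    rw [← h8]
    congr 1 <;> ring

theorem dfs_step {gd : ℕ} {acc : ℕ → Bool} {C : List (List ℕ × List ℕ)} {r : ℕ} (b : ℕ → Bool) (s0 : ℕ)
    (hg : ∀ d ≤ r, (s0 + ∑ v ∈ Finset.range d, inc C r v (b v)) &&& gd = 0) (I : List (ℕ × ℕ)) (d : ℕ) (hd : d ≤ r)
    (hI : incOK C r I d = true) (h : dfs I gd acc (s0 + ∑ v ∈ Finset.range d, inc C r v (b v)) = true)
    (hl : I.length + d = r) : acc (s0 + ∑ v ∈ Finset.range r, inc C r v (b v)) = true := by
  induction I generalizing d with
  | nil => obtain rfl : d = r := (nbeq_iff _ _).1 hI; exact h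
  | cons p I ih =>
    have h1 : band (Nat.beq p.1 (inc C r d false)) (band (Nat.beq p.2 (inc C r d true))
      (force (Nat.succ d) (incOK C r I))) = true := hI
    rw [band_iff, band_iff, nbeq_iff, nbeq_iff, force_eq] at h1
    have h2 : ∀ st, dfs (p :: I) gd acc st =
      band (Bool.rec true (dfs I gd acc (st + p.1)) (Nat.beq ((st + p.1) &&& gd) 0))
        (Bool.rec true (dfs I gd acc (st + p.2)) (Nat.beq ((st + p.2) &&& gd) 0)) := fun _ => rfl
    rw [List.length_cons] at hl
    rw [h2, band_iff, h1.1, h1.2.1] at h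
    have h3 := hg (d + 1) (by omega)
    refine ih (d + 1) (by omega) h1.2.2 ?_ (by omega)
    rw [Finset.sum_range_succ, ← add_assoc] at h3 ⊢
    cases hb : b d
    · rw [hb] at h3
      have h4 := h.1
      rwa [h3] at h4
    · rw [hb] at h3
      have h4 := h.2
      rwa [h3] at h4

theorem dfs_sound {C : List (List ℕ × List ℕ)} {r ρ : ℕ} {I : List (ℕ × ℕ)} {acc : ℕ → Bool} (hρ : ρ ≤ 127)
    (hI : incOK C r I 0 = true) (hl : I.length = r) (h : dfsOK C r ρ I acc = true) (X : ℕ → Prop)
    (hC : ∀ l ∈ C, (l.2.map fun c => ind (X (c / 2)) (bit c 0)).sum = ρ ∧ l.2.length ≤ 127) :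
    acc (low X r) = true := by
  classical
  unfold dfsOK at h
  rw [force_eq, force_eq, shl_eq, shl_eq, shl_eq, mul_one] at h
  have h1 : ∀ d, ∑ v ∈ Finset.range d, inc C r v (decide (X v)) =
      2 ^ r * (∑ v ∈ Finset.range d, packC C fun l => incC l.2 v (decide (X v))) + low X d := fun d => by
    unfold low
    rw [Finset.mul_sum, ← Finset.sum_add_distrib]
    refine Finset.sum_congr rfl fun v _ => ?_
    unfold inc
    rw [Nat.add_eq, shl_eq, shl_eq, add_comm]
    by_cases h2 : X v <;> simp [h2]
  have h2 := dfs_step (C := C) (r := r) (fun v => decide (X v)) _ (fun d hd => ?_) I 0 (Nat.zero_le _) hI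
    (by rwa [Finset.range_zero, Finset.sum_empty, add_zero]) hl
  · simp only [h1] at h2
    change acc (_ % _) = true at h2
    rwa [← add_assoc, ← mul_add, Nat.mul_add_mod, Nat.mod_eq_of_lt (low_lt X r)] at h2
  · simp only [h1]
    have h3 := land_split ((low_lt X d).trans_le (Nat.pow_le_pow_right (by norm_num) hd)) (Nat.two_pow_pos r)
      (packC C (initC ρ) + ∑ v ∈ Finset.range d, packC C fun l => incC l.2 v (decide (X v))) (packC C fun _ => 32896)
    rw [land_pack X d ρ hρ C hC] at h3
    simp only [mul_zero, add_zero, Nat.and_zero] at h3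
    rw [← h3, mul_add, add_assoc]

end Cfsg.Agent.Spor.R3
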