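import Mathlib
import Cfsg.Agent.Spor.R3.Dfs
import Cfsg.Agent.Spor.Rank3

/-!
Recognition of rank 3 groups, part 3: strongly regular graphs, second moments, and the graph on one side of a vertex.
-/

set_option autoImplicit false

namespace Cfsg.Agent.Spor.R3

open MulAction

section Srg

variable {Ω : Type*} {Γ : SimpleGraph Ω} {a : Ω} {N k l m : ℕ}

/-- The neighbours (`ε` true) or the non-neighbours (`ε` false) of `a`. -/
def side (Γ : SimpleGraph Ω) (a : Ω) (ε : Bool) : Set Ω := {z | z ≠ a ∧ (Γ.Adj a z ↔ ε = true)}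

/-- Strong regularity. -/
structure Srg (Γ : SimpleGraph Ω) (N k l m : ℕ) : Prop where
  card : Nat.card Ω = N
  deg : ∀ v, {z | Γ.Adj v z}.ncard = k
  lam : ∀ v w, Γ.Adj v w → {z | Γ.Adj v z ∧ Γ.Adj w z}.ncard = l
  mu : ∀ v w, v ≠ w → ¬ Γ.Adj v w → {z | Γ.Adj v z ∧ Γ.Adj w z}.ncard = m

theorem Srg.of [Fintype Ω] [DecidableRel Γ.Adj] (h : Γ.IsSRGWith N k l m) : Srg Γ N k l m := by
  have h1 : ∀ (P : Ω → Prop) [DecidablePred P], {z | P z}.ncard = (Finset.univ.filter P).card := fun P _ => by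
    rw [← Set.ncard_coe_finset]; simp
  exact ⟨by rw [Nat.card_eq_fintype_card, h.card], fun v => by rw [h1]; exact Srg.srg_deg h v,
    fun v w h2 => by rw [h1]; exact Srg.srg_adj h h2, fun v w h2 h3 => by rw [h1]; exact Srg.srg_not_adj h h2 h3⟩

theorem side_true : side Γ a true = {z | Γ.Adj a z} := by
  ext z; exact ⟨fun h => h.2.2 rfl, fun h => ⟨h.ne', by simpa using h⟩⟩

theorem side_cases (ε : Bool) (z : Ω) : z = a ∨ z ∈ side Γ a ε ∨ z ∈ side Γ a (!ε) := by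
  by_cases h : z = a
  · exact Or.inl h
  · by_cases h2 : Γ.Adj a z <;> cases ε <;> simp [side, h, h2]

theorem side_disj {ε : Bool} {z : Ω} (h : z ∈ side Γ a ε) (h' : z ∈ side Γ a (!ε)) : False := by
  have := h.2.symm.trans h'.2
  cases ε <;> simp at this

theorem ncard_split [Finite Ω] (S : Set Ω) (P : Ω → Prop) :
    S.ncard = {z | z ∈ S ∧ P z}.ncard + {z | z ∈ S ∧ ¬ P z}.ncard := by
  rw [← Set.ncard_union_eq (Set.disjoint_left.2 fun z h1 h2 => h2.2 h1.2)]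
  congr 1; ext z; simp only [Set.mem_union, Set.mem_ofPred_eq]; tauto

theorem Srg.ncard_side [Finite Ω] (h : Srg Γ N k l m) (a : Ω) (ε : Bool) :
    (side Γ a ε).ncard = cond ε k (N - k - 1) := by
  cases ε
  · have h1 := ncard_split Set.univ (Γ.Adj a)
    have h2 : {z | z ∈ Set.univ ∧ ¬ Γ.Adj a z} = insert a (side Γ a false) := by
      ext z; by_cases h : z = a <;> simp [side, h]
    rw [h2, Set.ncard_insert_of_notMem (fun h3 => h3.1 rfl), Set.ncard_univ, h.card] at h1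
    simp only [Set.mem_univ, true_and, h.deg] at h1
    simp only [cond_false]; omega
  · rw [side_true, h.deg]; rfl

theorem Srg.val_side [Finite Ω] (h : Srg Γ N k l m) {ε : Bool} {x : Ω} (hx : x ∈ side Γ a ε) :
    {z | z ∈ side Γ a ε ∧ Γ.Adj x z}.ncard = cond ε l (k - m) := by
  cases ε
  · have h0 : ¬ Γ.Adj a x := by simpa using hx.2
    have h1 := ncard_split {z | Γ.Adj x z} (Γ.Adj a)
    have h2 : {z | z ∈ {z | Γ.Adj x z} ∧ ¬ Γ.Adj a z} = {z | z ∈ side Γ a false ∧ Γ.Adj x z} := by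
      ext z
      simp only [side, Set.mem_ofPred_eq, Bool.false_eq_true, iff_false]
      exact ⟨fun h => ⟨⟨fun e => h0 (e ▸ h.1.symm), h.2⟩, h.1⟩, fun h => ⟨h.2, h.1.2⟩⟩
    rw [h2, h.deg] at h1
    simp only [Set.mem_ofPred_eq, h.mu x a hx.1 fun e => h0 e.symm] at h1
    simp only [cond_false]; omega
  · rw [side_true] at hx ⊢
    exact h.lam a x hx

/-- The square of the difference. -/
def sqd (a b : ℕ) : ℕ := Nat.add (Nat.mul (Nat.sub a b) (Nat.sub a b)) (Nat.mul (Nat.sub b a) (Nat.sub b a))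

theorem sqd_add (v ρ : ℕ) : sqd v ρ + 2 * ρ * v = v * v + ρ * ρ := by
  show (v - ρ) * (v - ρ) + (ρ - v) * (ρ - v) + _ = _
  rcases le_total v ρ with h | h
  · obtain ⟨d, rfl⟩ := Nat.exists_eq_add_of_le h
    rw [Nat.sub_eq_zero_of_le h, Nat.add_sub_cancel_left]; ring
  · obtain ⟨d, rfl⟩ := Nat.exists_eq_add_of_le h
    rw [Nat.sub_eq_zero_of_le h, Nat.add_sub_cancel_left]; ring

theorem eq_of_sqd {v ρ : ℕ} (h : sqd v ρ = 0) : v = ρ := by
  change (v - ρ) * (v - ρ) + (ρ - v) * (ρ - v) = 0 at h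
  simp only [Nat.add_eq_zero_iff, mul_self_eq_zero] at h
  omega

/-- The number of vertices at which two literals hold, from the number `c` of common neighbours. -/
noncomputable def both (N k : ℕ) (s s' : Bool) (c : ℕ) : ℕ :=
  Bool.rec (Bool.rec c (Nat.sub k c) s') (Bool.rec (Nat.sub k c) (Nat.sub (Nat.add N c) (Nat.mul 2 k)) s') s

theorem sum_ind2 [Fintype Ω] (h : Srg Γ N k l m) (x y : Ω) (s s' : Bool) :
    ∑ z, ind (Γ.Adj x z) s * ind (Γ.Adj y z) s' = both N k s s' {z | Γ.Adj x z ∧ Γ.Adj y z}.ncard := by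
  classical
  have h1 : ∑ z, ind (Γ.Adj x z) s * ind (Γ.Adj y z) s' =
      {z | (Γ.Adj x z ↔ s = false) ∧ (Γ.Adj y z ↔ s' = false)}.ncard := by
    rw [Set.ncard_eq_toFinset_card', Set.toFinset_ofPred, Finset.card_filter]
    refine Finset.sum_congr rfl fun z _ => ?_
    unfold ind
    split_ifs <;> simp_all
  have h2 := ncard_split {z | Γ.Adj x z} (Γ.Adj y)
  have h3 := ncard_split {z | Γ.Adj y z} (Γ.Adj x)
  have h4 := ncard_split Set.univ (Γ.Adj x)
  have h5 := ncard_split {z | ¬ Γ.Adj x z} (Γ.Adj y)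
  simp only [Set.mem_ofPred_eq, Set.mem_univ, true_and, h.deg, Set.ncard_univ, h.card] at h2 h3 h4 h5
  simp only [and_comm (a := Γ.Adj y _)] at h3
  rw [h1]
  cases s <;> cases s' <;> simp only [both, iff_true, Bool.true_eq_false, iff_false, Nat.sub_eq, Nat.add_eq, Nat.mul_eq] <;>
    omega

theorem sum_ind [Fintype Ω] (h : Srg Γ N k l m) (x : Ω) (s : Bool) :
    ∑ z, ind (Γ.Adj x z) s = Bool.rec k (Nat.sub N k) s := by
  have h1 := sum_ind2 h x x s s
  have h2 : ∀ z, ind (Γ.Adj x z) s * ind (Γ.Adj x z) s = ind (Γ.Adj x z) s := fun z => by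
    unfold ind; split_ifs <;> rfl
  simp only [h2, and_self, h.deg] at h1
  rw [h1]
  cases s <;> simp only [both, Nat.sub_eq, Nat.add_eq, Nat.mul_eq]
  omega

theorem sum_list {τ ι : Type*} (s : Finset ι) (L : List τ) (f : τ → ι → ℕ) :
    ∑ z ∈ s, (L.map fun t => f t z).sum = (L.map fun t => ∑ z ∈ s, f t z).sum := by
  induction L with
  | nil => simp
  | cons t L ih => simp [Finset.sum_add_distrib, ih]

/-- The second moment of the number of literals that hold. -/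
theorem sum_sqd [Fintype Ω] (h : Srg Γ N k l m) {τ : Type} (L : List τ) (pt : τ → Ω) (sg : τ → Bool) (ρ : ℕ) :
    ∑ z, sqd (L.map fun t => ind (Γ.Adj (pt t) z) (sg t)).sum ρ +
      2 * ρ * (L.map fun t => (Bool.rec k (Nat.sub N k) (sg t) : ℕ)).sum =
    (L.map fun t => (L.map fun t' => both N k (sg t) (sg t') {z | Γ.Adj (pt t) z ∧ Γ.Adj (pt t') z}.ncard).sum).sum +
      N * (ρ * ρ) := by
  rw [show (fun t => (Bool.rec k (Nat.sub N k) (sg t) : ℕ)) = fun t => ∑ z, ind (Γ.Adj (pt t) z) (sg t) from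
    funext fun t => (sum_ind h _ _).symm]
  simp only [← sum_ind2 h, ← sum_list]
  rw [Finset.mul_sum, ← Finset.sum_add_distrib]
  simp only [sqd_add, Finset.sum_add_distrib, Finset.sum_const, Finset.card_univ, smul_eq_mul]
  rw [← h.card, Nat.card_eq_fintype_card]
  congr 1
  refine Finset.sum_congr rfl fun z _ => ?_
  simp only [List.sum_map_mul_left, List.sum_map_mul_right]

end Srg

/-- A group acting on a strongly regular graph, fixing `a`, with two further orbits. -/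
structure RK3 (H : Type*) [Group H] {Ω : Type*} [MulAction H Ω] (Γ : SimpleGraph Ω) (a : Ω) (N k l m : ℕ) : Prop
    extends Srg Γ N k l m where
  inv : ∀ (h : H) x y, Γ.Adj (h • x) (h • y) ↔ Γ.Adj x y
  fix : ∀ h : H, h • a = a
  orb : ∀ ε, ∀ z ∈ side Γ a ε, orbit H z = side Γ a ε

/-- A transitive permutation model: the orbit of `e x0` consists of the points `e i` with `inX i`. -/
structure Mod {H α : Type*} [Group H] [MulAction H α] (e : ℕ → α) (n : ℕ) (T : ℕ → ℕ → ℕ) (g : ℕ → H) (r x0 : ℕ)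
    (inX : ℕ → Bool) : Prop where
  inj : Set.InjOn e (Set.Iio n)
  tabs : Tabs e n T g r
  lt : x0 < n
  orb : orbit H (e x0) = e '' {i | i < n ∧ inX i = true}

section Model

variable {H Ω α : Type*} [Group H] [MulAction H Ω] [MulAction H α] {Γ : SimpleGraph Ω} {a : Ω} {N k l m : ℕ}
  {e : ℕ → α} {n r x0 : ℕ} {T : ℕ → ℕ → ℕ} {g : ℕ → H} {inX : ℕ → Bool} {φ : α → Ω} {ε : Bool}

theorem Mod.mem (M : Mod e n T g r x0 inX) {i : ℕ} (hi : i < n) : e i ∈ orbit H (e x0) ↔ inX i = true := by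
  rw [M.orb]
  exact ⟨fun ⟨_, hj, h⟩ => M.inj hj.1 hi h ▸ hj.2, fun h => ⟨i, ⟨hi, h⟩, rfl⟩⟩

theorem Mod.ncard (M : Mod e n T g r x0 inX) : (orbit H (e x0)).ncard = count2 n inX := by
  rw [M.orb, ncard_image_label M.inj]

theorem mem_orbit_smul {x z : α} (h : H) : h • z ∈ orbit H x ↔ z ∈ orbit H x :=
  ⟨fun h1 => by simpa using mem_orbit_of_mem_orbit h⁻¹ h1, mem_orbit_of_mem_orbit h⟩

theorem Emb.adj (hR : RK3 H Γ a N k l m) {X0 : Set α} {X : Set Ω} (hφ : Emb H φ X0 X) (h : H) {x y : α} (hx : x ∈ X0)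
    (hy : y ∈ X0) : Γ.Adj (φ (h • x)) (φ (h • y)) ↔ Γ.Adj (φ x) (φ y) := by
  rw [hφ.eqv h x hx, hφ.eqv h y hy, hR.inv]

theorem Mod.ncard_eq (M : Mod e n T g r x0 inX) {X : Set Ω} (hφ : Emb H φ (orbit H (e x0)) X) (P : Ω → Prop) :
    {i | i < n ∧ (inX i = true ∧ P (φ (e i)))}.ncard = {z | z ∈ X ∧ P z}.ncard := by
  rw [← Set.InjOn.ncard_image (f := fun i => φ (e i))]
  · congr 1
    ext z
    constructor
    · rintro ⟨i, ⟨h1, h2, h3⟩, rfl⟩
      exact ⟨hφ.bij.mapsTo ((M.mem h1).2 h2), h3⟩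
    · rintro ⟨h1, h2⟩
      obtain ⟨y, hy, rfl⟩ := hφ.bij.surjOn h1
      rw [M.orb] at hy
      obtain ⟨i, hi, rfl⟩ := hy
      exact ⟨i, ⟨hi.1, hi.2, h2⟩, rfl⟩
  · intro i hi j hj h
    exact M.inj hi.1 hj.1 (hφ.bij.injOn ((M.mem hi.1).2 hi.2.1) ((M.mem hj.1).2 hj.2.1) h)

/-- The neighbours of the base point on its side. -/
theorem adj_base [Finite Ω] (hR : RK3 H Γ a N k l m) (M : Mod e n T g r x0 inX)
    (hφ : Emb H φ (orbit H (e x0)) (side Γ a ε)) {T1 : ℕ → ℕ → ℕ} {g1 : ℕ → H} {r1 : ℕ} (ht : Tabs e n T1 g1 r1)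
    (hfix : genLt g1 r1 ≤ stabilizer H (e x0)) {E rt sz : ℕ → ℕ} {c σ : ℕ}
    (hol : allRange 0 n (olOK T1 r1 E rt) = true) (hsz : szOK n c E sz = true)
    (hsub : subOK c sz (fun v => inX (rt v)) (cond ε l (k - m)) σ = true) {i : ℕ} (hi : i < n) (hx : inX i = true) :
    Γ.Adj (φ (e x0)) (φ (e i)) ↔ bit σ (labE E i) = true := by
  rw [← sub_unique hsz hsub (P := fun i => inX i = true ∧ Γ.Adj (φ (e x0)) (φ (e i))) (fun i hi => ?_)
    (fun v h => h.1) ((M.ncard_eq hφ _).trans (hR.val_side (hφ.bij.mapsTo (mem_orbit_self _)))) hi]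
  · simp [hx]
  · obtain ⟨h1, b, hb, h2⟩ := ol_root ht hol hi
    rw [← M.mem hi, ← M.mem h1, ← h2, mem_orbit_smul]
    refine and_congr_right fun h3 => ?_
    rw [← hφ.adj hR b (mem_orbit_self _) h3, hfix hb]

/-- Adjacency of the point of `t` and the point `z`. -/
noncomputable def adjW (T : ℕ → ℕ → ℕ) (E : ℕ → ℕ) (σ : ℕ) (w : List ℕ) (z : ℕ) : Bool := bit σ (labE E (traceP T w z))

theorem adj_word (hR : RK3 H Γ a N k l m) (M : Mod e n T g r x0 inX) {X : Set Ω} (hφ : Emb H φ (orbit H (e x0)) X)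
    {E : ℕ → ℕ} {σ : ℕ} (hA : ∀ i < n, inX i = true → (Γ.Adj (φ (e x0)) (φ (e i)) ↔ bit σ (labE E i) = true))
    {x : ℕ} {w : List ℕ} (hx : x < n) (hw : lettersLt r w = true) (h0 : traceP T w x = x0) {i : ℕ} (hi : i < n)
    (hi' : inX i = true) : Γ.Adj (φ (e x)) (φ (e i)) ↔ adjW T E σ w i = true := by
  have h1 := M.tabs.evalW hw
  have h2 : evalW g w • e x = e x0 := h0 ▸ (h1 x hx).2
  have h3 := (M.mem hi).2 hi'
  rw [← hφ.adj hR (evalW g w) ((mem_orbit_smul (evalW g w)).1 (by rw [h2]; exact mem_orbit_self _)) h3, h2, (h1 i hi).2]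
  exact hA _ (h1 i hi).1 ((M.mem (h1 i hi).1).1 ((h1 i hi).2 ▸ (mem_orbit_smul _).2 h3))

/-- The second moment vanishes on the other side. -/
noncomputable def quadOK (T : ℕ → ℕ → ℕ) (E : ℕ → ℕ) (σ n r x0 : ℕ) (inX : ℕ → Bool) (ε : Bool) (N k l m ρ : ℕ)
    (L : List (ℕ × List ℕ × Bool)) : Bool :=
  band (allL L fun t => band (blt t.1 n) (band (inX t.1) (band (lettersLt r t.2.1) (Nat.beq (traceP T t.2.1 t.1) x0))))
    (Nat.beq
      (Nat.add (Nat.add (sum2 n fun z => Bool.rec 0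
          (force (sumL L fun t => indB (adjW T E σ t.2.1 z) t.2.2) fun v => sqd v ρ) (inX z))
        (sqd (sumL L fun t => indB ε t.2.2) ρ)) (Nat.mul (Nat.mul 2 ρ) (sumL L fun t => Bool.rec k (Nat.sub N k) t.2.2)))
      (Nat.add (sumL L fun t => sumL L fun t' => both N k t.2.2 t'.2.2
        (Bool.rec (Bool.rec m l (adjW T E σ t.2.1 t'.1)) k (Nat.beq t.1 t'.1))) (Nat.mul N (Nat.mul ρ ρ))))

theorem quad [Finite Ω] (hR : RK3 H Γ a N k l m) (M : Mod e n T g r x0 inX)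
    (hφ : Emb H φ (orbit H (e x0)) (side Γ a ε)) {E : ℕ → ℕ} {σ ρ : ℕ}
    (hA : ∀ i < n, inX i = true → (Γ.Adj (φ (e x0)) (φ (e i)) ↔ bit σ (labE E i) = true))
    {L : List (ℕ × List ℕ × Bool)} (hq : quadOK T E σ n r x0 inX ε N k l m ρ L = true) {c : Ω}
    (hc : c ∈ side Γ a (!ε)) : (L.map fun t => ind (Γ.Adj (φ (e t.1)) c) t.2.2).sum = ρ := by
  classical
  have := Fintype.ofFinite Ω
  unfold quadOK at hq
  simp only [band_iff, allL_iff, blt_iff, nbeq_iff, sum2_eq, sumL_eq, force_eq, Nat.add_eq, Nat.mul_eq] at hq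
  obtain ⟨h1, h2⟩ := hq
  have h3 : ∀ t ∈ L, ∀ i < n, inX i = true → (Γ.Adj (φ (e t.1)) (φ (e i)) ↔ adjW T E σ t.2.1 i = true) :=
    fun t ht i hi hi' => adj_word hR M hφ hA (h1 t ht).1 (h1 t ht).2.2.1 (h1 t ht).2.2.2 hi hi'
  have h4 : ∀ i < n, inX i = true → φ (e i) ∈ side Γ a ε := fun i hi hi' => hφ.bij.mapsTo ((M.mem hi).2 hi')
  have h5 : ∀ i < n, inX i = true → ∀ j < n, inX j = true → φ (e i) = φ (e j) → i = j := fun i hi hi' j hj hj' h =>
    M.inj hi hj (hφ.bij.injOn ((M.mem hi).2 hi') ((M.mem hj).2 hj') h)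
  have h6 := sum_sqd hR.toSrg L (fun t => φ (e t.1)) (fun t => t.2.2) ρ
  have h7 : (L.map fun t => (L.map fun t' => both N k t.2.2 t'.2.2
      {z | Γ.Adj (φ (e t.1)) z ∧ Γ.Adj (φ (e t'.1)) z}.ncard).sum).sum = (L.map fun t => (L.map fun t' =>
        both N k t.2.2 t'.2.2 (Bool.rec (Bool.rec m l (adjW T E σ t.2.1 t'.1)) k (Nat.beq t.1 t'.1))).sum).sum := by
    refine congrArg _ (List.map_congr_left fun t ht => congrArg _ (List.map_congr_left fun t' ht' => ?_))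
    congr 1
    cases h8 : Nat.beq t.1 t'.1
    · have h9 : φ (e t.1) ≠ φ (e t'.1) := fun h => by
        rw [h5 _ (h1 t ht).1 (h1 t ht).2.1 _ (h1 t' ht').1 (h1 t' ht').2.1 h, (nbeq_iff _ _).2 rfl] at h8
        exact absurd h8 (by simp)
      have h10 := h3 t ht _ (h1 t' ht').1 (h1 t' ht').2.1
      cases h11 : adjW T E σ t.2.1 t'.1
      · exact hR.mu _ _ h9 (by simp [h10, h11])
      · exact hR.lam _ _ (h10.2 h11)
    · rw [← (nbeq_iff _ _).1 h8]
      simp only [and_self, hR.deg]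
  set f : Ω → ℕ := fun z => sqd (L.map fun t => ind (Γ.Adj (φ (e t.1)) z) t.2.2).sum ρ with hf
  have h8 : f a = sqd (L.map fun t => indB ε t.2.2).sum ρ := by
    refine congrArg (sqd · ρ) (congrArg _ (List.map_congr_left fun t ht => ind_eq ?_ _))
    rw [Γ.adj_comm]
    exact (h4 _ (h1 t ht).1 (h1 t ht).2.1).2
  have h9 : ∑ z ∈ ((Finset.range n).filter fun i => inX i = true).image (fun i => φ (e i)), f z =
      ∑ z ∈ Finset.range n, (Bool.rec 0 (sqd (L.map fun t => indB (adjW T E σ t.2.1 z) t.2.2).sum ρ) (inX z) : ℕ) := by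
    rw [Finset.sum_image fun i hi j hj h => by
      simp only [Finset.coe_filter, Finset.mem_range, Set.mem_ofPred_eq] at hi hj
      exact h5 i hi.1 hi.2 j hj.1 hj.2 h, Finset.sum_filter]
    refine Finset.sum_congr rfl fun i hi => ?_
    cases h : inX i
    · rfl
    · exact congrArg (sqd · ρ) (congrArg _ (List.map_congr_left fun t ht =>
        ind_eq (h3 t ht i (Finset.mem_range.1 hi) h) _))
  have h10 : ∀ z ∈ ((Finset.range n).filter fun i => inX i = true).image (fun i => φ (e i)), z ∈ side Γ a ε := by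
    intro z hz
    simp only [Finset.mem_image, Finset.mem_filter, Finset.mem_range] at hz
    obtain ⟨i, hi, rfl⟩ := hz
    exact h4 i hi.1 hi.2
  have h11 := Finset.sum_le_sum_of_subset (f := f) (Finset.subset_univ (insert c (insert a
    (((Finset.range n).filter fun i => inX i = true).image fun i => φ (e i)))))
  rw [Finset.sum_insert (by
    rw [Finset.mem_insert]
    rintro (h | h)
    exacts [hc.1 h, side_disj (h10 c h) hc]), Finset.sum_insert fun h => (h10 a h).1 rfl, h8, h9] at h11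
  rw [h7, ← h2] at h6
  have h12 : ∑ z, f z = _ := Nat.add_right_cancel h6
  rw [h12] at h11
  exact eq_of_sqd ((fun (u v w : ℕ) (h : u + (v + w) ≤ w + v) => (by omega : u = 0)) _ _ _ h11)

/-- The constraints, in terms of the classes. -/
noncomputable def conOK (T : ℕ → ℕ → ℕ) (E : ℕ → ℕ) (r : ℕ) (L : List (ℕ × List ℕ × Bool))
    (C : List (List ℕ × List ℕ)) : Bool :=
  allL C fun c => band (lettersLt r c.1)
    (beqL c.2 (mapL L fun t => Nat.add (Nat.mul 2 (labE E (traceP T c.1 t.1))) (Bool.rec 0 1 t.2.2)))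

/-- The neighbours on one side of a suitable vertex on the other side. -/
theorem exists_nbrs [Finite Ω] (hR : RK3 H Γ a N k l m) (M : Mod e n T g r x0 inX)
    (hφ : Emb H φ (orbit H (e x0)) (side Γ a ε)) {L : List (ℕ × List ℕ × Bool)} {ρ : ℕ}
    (hL : allL L (fun t => band (blt t.1 n) (inX t.1)) = true)
    (hQ : ∀ c ∈ side Γ a (!ε), (L.map fun t => ind (Γ.Adj (φ (e t.1)) c) t.2.2).sum = ρ)
    {T1 : ℕ → ℕ → ℕ} {g1 : ℕ → H} {r1 p : ℕ} [Fact p.Prime] (ht : Tabs e n T1 g1 r1) (hp : IsPGroup p (genLt g1 r1))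
    (hp' : ¬ p ∣ cond (!ε) k (N - k - 1)) {E rt : ℕ → ℕ} (hol : allRange 0 n (olOK T1 r1 E rt) = true) {v : ℕ}
    (hv : allRange 0 n (fun i => bor (!inX i) (blt (labE E i) v)) = true) {C : List (List ℕ × List ℕ)}
    (hC : conOK T E r L C = true) {I : List (ℕ × ℕ)} {acc : ℕ → Bool} (hρ : ρ ≤ 127) (hl : L.length ≤ 127)
    (hI : incOK C v I 0 = true) (hI' : I.length = v) (h : dfsOK C v ρ I acc = true) :
    ∃ c ∈ side Γ a (!ε), ∃ s, acc s = true ∧ (∀ h ∈ genLt g1 r1, h • c = c) ∧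
      ∀ i < n, inX i = true → (Γ.Adj (φ (e i)) c ↔ bit s (labE E i) = true) := by
  obtain ⟨c, hc, h1⟩ := exists_fixed hp (Set.toFinite (side Γ a (!ε)))
    (fun b _ z hz => hR.orb _ z hz ▸ mem_orbit z b) (by rwa [hR.ncard_side])
  have h2 : ∀ i < n, inX i = true → (Γ.Adj (φ (e i)) c ↔ Γ.Adj (φ (e (rt (labE E i)))) c) := fun i hi hi' => by
    obtain ⟨h3, b, hb, h4⟩ := ol_root ht hol hi
    rw [← hR.inv b (φ (e (rt _))), h1 b hb, ← hφ.eqv b _ ((mem_orbit_smul b).1 (h4 ▸ (M.mem hi).2 hi')), h4]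
  refine ⟨c, hc, _, dfs_sound hρ hI hI' h (fun v => Γ.Adj (φ (e (rt v))) c) fun u hu => ?_, h1, fun i hi hi' => ?_⟩
  · have h3 := (allL_iff _ _).1 hC u hu
    rw [band_iff] at h3
    have h4 := M.tabs.evalW h3.1
    rw [eq_of_beqL h3.2, mapL_eq, List.length_map, List.map_map]
    refine ⟨?_, hl⟩
    rw [← hQ ((evalW g u.1)⁻¹ • c) (hR.orb _ c hc ▸ mem_orbit c _)]
    refine congrArg _ (List.map_congr_left fun t ht => ?_)
    have h5 := (allL_iff _ _).1 hL t ht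
    rw [band_iff, blt_iff] at h5
    have h6 := (M.mem h5.1).2 h5.2
    have h7 : ∀ (j : ℕ) (s : Bool), Nat.add (Nat.mul 2 j) (Bool.rec 0 1 s) / 2 = j ∧
        bit (Nat.add (Nat.mul 2 j) (Bool.rec 0 1 s)) 0 = s := fun j s => by
      rw [bit_eq, Nat.add_eq, Nat.mul_eq]
      cases s
      · simp
      · simp only [Nat.testBit_zero, decide_eq_true_eq]; omega
    show ind _ _ = _
    rw [(h7 _ _).1, (h7 _ _).2]
    refine ind_congr ?_ _
    rw [← h2 _ (h4 _ h5.1).1 ((M.mem (h4 _ h5.1).1).1 ((h4 _ h5.1).2 ▸ (mem_orbit_smul _).2 h6)),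
      ← (h4 _ h5.1).2, hφ.eqv _ _ h6, ← hR.inv (evalW g u.1)⁻¹, inv_smul_smul]
  · have h3 := allRange_zero hv i hi
    rw [hi', bor_iff, blt_iff] at h3
    rw [h2 i hi hi', bit_low _ (h3.resolve_left (by simp))]

end Model

end Cfsg.Agent.Spor.R3
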