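import Mathlib
import Cfsg.Agent.Spor.R3.Graph
import Cfsg.Agent.Spor.Srg100Aut

/-!
Recognition of rank 3 groups, part 4: the stabiliser on one side, the isomorphism of the graphs and of the groups.
-/

set_option autoImplicit false

namespace Cfsg.Agent.Spor.R3

open MulAction
open scoped Pointwise

/-- Membership in a list. -/
noncomputable def memL (l : List ℕ) (x : ℕ) : Bool := List.rec false (fun y _ ih => bor (Nat.beq y x) ih) l

theorem memL_iff (l : List ℕ) (x : ℕ) : memL l x = true ↔ x ∈ l := by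
  induction l with
  | nil => simp [memL]
  | cons y l ih =>
    have : memL (y :: l) x = bor (Nat.beq y x) (memL l x) := rfl
    rw [this, bor_iff, ih, nbeq_iff, List.mem_cons, eq_comm]

/-- Only the class 1 has a size dividing `o * t` with `0 < t < o` and `o ∣ J`. -/
noncomputable def arOK (J c x0 : ℕ) (sz rt : ℕ → ℕ) (inX : ℕ → Bool) : Bool :=
  allLt (Nat.succ J) fun o => bor (!Nat.beq (Nat.mod J o) 0) <| allLt o fun t => bor (Nat.beq t 0) <|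
    allLt c fun v => bor (!inX (rt v)) <| bor (Nat.beq (rt v) x0) <|
      bor (!Nat.beq (Nat.mod (Nat.mul o t) (sz v)) 0) (Nat.beq v 1)

/-- `L` contains `x0`, the root of the class 1 and the points in relation 1 to both. -/
noncomputable def clOK (T : ℕ → ℕ → ℕ) (E rt : ℕ → ℕ) (n r x0 : ℕ) (w L : List ℕ) : Bool :=
  band (band (lettersLt r w) (Nat.beq (traceP T w (rt 1)) x0)) <|
    band (band (blt (rt 1) n) (Nat.beq (labE E (rt 1)) 1)) <| band (band (memL L x0) (memL L (rt 1))) <|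
      allRange 0 n fun i => bor (!Nat.beq (labE E i) 1) (bor (!Nat.beq (labE E (traceP T w i)) 1) (memL L i))

section

variable {H Ω α : Type*} [Group H] [MulAction H Ω] [MulAction H α] {Γ : SimpleGraph Ω} {a : Ω} {N k l m : ℕ}
  {e : ℕ → α} {n r x0 : ℕ} {T : ℕ → ℕ → ℕ} {g : ℕ → H} {inX : ℕ → Bool} {φ : α → Ω} {ε : Bool}

theorem exists_clique [Finite H] (M : Mod e n T g r x0 inX) {X : Set Ω} (hX : ∀ x ∈ X, orbit H x = X)
    (hfin : X.Finite) (hc : X.ncard = count2 n inX) {p j J : ℕ} [hpp : Fact p.Prime] (hp : ¬ p ∣ X.ncard)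
    (hJ : Nat.card (stabilizer H (e x0)) = p ^ j * J) {r1 : ℕ} (hr : r1 ≤ r)
    (hst : genLt g r1 = stabilizer H (e x0)) {E rt sz : ℕ → ℕ} {c : ℕ} (hol : allRange 0 n (olOK T r1 E rt) = true)
    (hcl : allRange 0 n (olCl T r1 E) = true) (hsz : szOK n c E sz = true) (har : arOK J c x0 sz rt inX = true)
    {w L : List ℕ} (hL : clOK T E rt n r x0 w L = true) :
    (∃ x ∈ X, stabilizer H x ≤ stabilizer H (e x0)) ∨ ∃ o t, 0 < t ∧ t < o ∧ o ≤ L.length ∧ sz 1 ∣ o * t ∧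
      (o = L.length → ∃ x ∈ X, stabilizer H x ≤ stabilizer H (e '' {i | i ∈ L})) := by
  obtain ⟨x, hx, h1, h2, h3⟩ := exists_orbit (p := p) hX hfin (hc.trans M.ncard.symm) hp
  set O := orbit (stabilizer H x) (e x0) with hO
  have ht := M.tabs.mono hr
  have hOf : O.Finite := Set.finite_range _
  have hsub : ∀ z ∈ O, ∃ i < n, inX i = true ∧ e i = z := fun z hz => by
    obtain ⟨i, hi, h⟩ := M.orb ▸ orbit_subgroup_subset _ _ hz
    exact ⟨i, hi.1, hi.2, h⟩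
  simp only [clOK, band_iff, nbeq_iff, blt_iff, memL_iff] at hL
  obtain ⟨⟨a1, a2⟩, ⟨a3, a4⟩, ⟨a5, a6⟩, a7⟩ := hL
  have key : ∀ z ∈ O, z ≠ e x0 → ∃ t, 0 < t ∧ t < O.ncard ∧ sz 1 ∣ O.ncard * t ∧
      ∃ b ∈ stabilizer H (e x0), b • e (rt 1) = z := by
    intro z hz hz'
    obtain ⟨i, hi, hi', rfl⟩ := hsub z hz
    obtain ⟨b1, b, hb, b2⟩ := ol_root ht hol hi
    have h4 := h3 (e i)
    rw [← hst, ol_orbit ht M.inj hol hcl hi, ncard_image_label M.inj,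
      (szOK_spec hsz).2 _ ((szOK_spec hsz).1 i hi), hst] at h4
    have h5 : orbit (stabilizer H x ⊓ stabilizer H (e x0) : Subgroup H) (e i) ⊂ O := by
      refine ⟨?_, fun h => ?_⟩
      · rintro _ ⟨y, rfl⟩
        exact mem_orbit_of_mem_orbit (⟨y, y.2.1⟩ : stabilizer H x) hz
      · obtain ⟨y, hy⟩ := h (mem_orbit_self (e x0))
        exact hz' ((smul_eq_iff_eq_inv_smul (y : H)).1 hy |>.trans ((stabilizer H (e x0)).inv_mem y.2.2))
    have h6 := Set.ncard_lt_ncard h5 hOf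
    have h7 := (Set.ncard_pos (hOf.subset h5.1)).2 ⟨_, mem_orbit_self (e i)⟩
    have h8 : O.ncard ∣ J := by
      rw [hJ] at h2
      exact ((Nat.Prime.coprime_iff_not_dvd hpp.out).2 h1).symm.pow_right j |>.dvd_of_dvd_mul_left h2
    have h9 : J ≠ 0 := fun h => by rw [h, mul_zero] at hJ; exact Nat.card_pos.ne' hJ
    have h10 := (allLt_iff _ _).1 har O.ncard (Nat.lt_succ_of_le (Nat.le_of_dvd (Nat.pos_of_ne_zero h9) h8))
    rw [show Nat.mod J O.ncard = 0 from Nat.mod_eq_zero_of_dvd h8, bor_iff, allLt_iff] at h10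
    have h11 := h10.resolve_left (by simp) _ h6
    rw [bor_iff, nbeq_iff, allLt_iff] at h11
    have h12 := h11.resolve_left h7.ne' _ ((szOK_spec hsz).1 i hi)
    rw [show Nat.mod (Nat.mul _ _) _ = 0 from Nat.mod_eq_zero_of_dvd h4,
      (M.mem b1).1 ((mem_orbit_smul b).1 (b2 ▸ (M.mem hi).2 hi')), bor_iff, bor_iff, bor_iff, nbeq_iff,
      nbeq_iff] at h12
    have h13 := ((h12.resolve_left (by simp)).resolve_left fun h => hz' (by
      rw [← b2, h]; exact hst.le hb)).resolve_left (by simp)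
    exact ⟨_, h7, h6, h13 ▸ h4, b, hst ▸ hb, h13 ▸ b2⟩
  by_cases hn : ∀ z ∈ O, z = e x0
  · exact Or.inl ⟨x, hx, fun y hy => hn _ (mem_orbit _ (⟨y, hy⟩ : stabilizer H x))⟩
  right
  simp only [not_forall] at hn
  obtain ⟨z, hz, hz'⟩ := hn
  obtain ⟨t, t1, t2, t3, b, hb, rfl⟩ := key z hz hz'
  have lab : ∀ i < n, ∀ u ∈ stabilizer H (e x0), u • e (rt 1) = e i → Nat.beq (labE E i) 1 = true :=
    fun i hi u hu h => (nbeq_iff _ _).2 ((ol_lab ht M.inj hcl (hst ▸ hu) a3 hi h).trans a4)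
  have hw := M.tabs.evalW a1
  have h4 : b⁻¹ • O ⊆ e '' {i | i ∈ L} := by
    rintro _ ⟨y, hy, rfl⟩
    show b⁻¹ • y ∈ _
    by_cases y1 : y = e x0
    · exact ⟨x0, a5, by rw [y1]; exact (inv_mem hb : b⁻¹ • e x0 = e x0).symm⟩
    by_cases y2 : y = b • e (rt 1)
    · exact ⟨rt 1, a6, by rw [y2, inv_smul_smul]⟩
    obtain ⟨i, hi, h5⟩ : b⁻¹ • y ∈ e '' {i | i < n ∧ inX i = true} :=
      M.orb ▸ (mem_orbit_smul _).2 (orbit_subgroup_subset _ _ hy)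
    refine ⟨i, ?_, h5⟩
    obtain ⟨-, -, -, -, u, hu, rfl⟩ := key y hy y1
    obtain ⟨s, hs⟩ := hz
    replace hs : (s : H) • e x0 = b • e (rt 1) := hs
    obtain ⟨-, -, -, -, v, hv, h6⟩ := key (s⁻¹ • u • e (rt 1)) (mem_orbit_of_mem_orbit s⁻¹ hy) fun h =>
      y2 (by rw [← hs, ← h]; exact (smul_inv_smul s _).symm)
    have h7 := allRange_zero a7 i hi.1
    rw [lab i hi.1 (b⁻¹ * u) (mul_mem (inv_mem hb) hu) (by rw [mul_smul, h5]),
      lab _ (hw i hi.1).1 (evalW g w * b⁻¹ * s * v) (by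
        rw [mem_stabilizer_iff, mul_smul, mul_smul, mul_smul, hv, hs, inv_smul_smul, (hw _ a3).2, a2]) (by
        rw [mul_smul, mul_smul, mul_smul, h6, ← (hw i hi.1).2, h5]
        exact congrArg _ (congrArg _ (smul_inv_smul s _)))] at h7
    simpa [memL_iff] using h7
  have h5 : (e '' {i | i ∈ L}).ncard ≤ L.length := by
    refine (Set.ncard_image_le L.finite_toSet).trans ?_
    rw [← List.coe_toFinset, Set.ncard_coe_finset]
    exact L.toFinset_card_le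
  have h6 := Set.ncard_le_ncard h4 (L.finite_toSet.image e)
  rw [Set.ncard_smul_set] at h6
  refine ⟨_, t, t1, t2, h6.trans h5, t3, fun h7 => ⟨b⁻¹ • x, hX x hx ▸ mem_orbit x _, fun y hy => ?_⟩⟩
  rw [← Set.eq_of_subset_of_ncard_le h4 (by rw [Set.ncard_smul_set, h7]; exact h5) (L.finite_toSet.image e),
    mem_stabilizer_iff, smul_smul, ← inv_smul_eq_iff, smul_smul, inv_inv]
  have h8 : b * (y * b⁻¹) ∈ stabilizer H x := by
    rw [mem_stabilizer_iff, mul_smul, mul_smul, hy, smul_inv_smul]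
  exact smul_orbit (⟨_, h8⟩ : stabilizer H x) (e x0)

/-- The graph is determined by its restrictions. -/
theorem iso_of [Finite H] [Finite Ω] [Finite α] (hR : RK3 H Γ a N k l m) {Γ0 : SimpleGraph α} {a0 : α}
    (hR0 : RK3 H Γ0 a0 N k l m) {x0 y0 : α} (hx0 : x0 ∈ side Γ0 a0 ε) (hy0 : y0 ∈ side Γ0 a0 (!ε))
    (hφ : Emb H φ (side Γ0 a0 ε) (side Γ a ε))
    (hX : ∀ z ∈ side Γ0 a0 ε, Γ.Adj (φ x0) (φ z) ↔ Γ0.Adj x0 z)
    (hY : ∀ ψ, Emb H ψ (side Γ0 a0 (!ε)) (side Γ a (!ε)) → ∀ z ∈ side Γ0 a0 (!ε), Γ.Adj (ψ y0) (ψ z) ↔ Γ0.Adj y0 z)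
    (hinj : ∀ y ∈ side Γ0 a0 (!ε), (∀ z ∈ side Γ0 a0 ε, Γ0.Adj z y ↔ Γ0.Adj z y0) → y = y0)
    {c : Ω} (hc : c ∈ side Γ a (!ε)) {y : α} (hy : y ∈ side Γ0 a0 (!ε))
    (hS : ∀ z ∈ side Γ0 a0 ε, Γ.Adj (φ z) c ↔ Γ0.Adj z y) : Nonempty (Γ0 ≃g Γ) := by
  classical
  have i0 : ∀ ε (h : H), ∀ z ∈ side Γ0 a0 ε, h • z ∈ side Γ0 a0 ε := fun ε h z hz => hR0.orb ε z hz ▸ mem_orbit z h
  obtain ⟨u, rfl⟩ : y ∈ orbit H y0 := (hR0.orb _ y0 hy0).symm ▸ hy
  have h1 : ∀ h : H, ∀ z ∈ side Γ0 a0 ε, Γ.Adj (φ z) (h • u⁻¹ • c) ↔ Γ0.Adj z (h • y0) := fun h z hz => by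
    rw [← hR.inv (u * h⁻¹), ← hφ.eqv _ _ hz, ← hR0.inv (u * h⁻¹), mul_smul u h⁻¹ (h • _), mul_smul u h⁻¹ (h • _),
      inv_smul_smul, inv_smul_smul, smul_inv_smul]
    exact hS _ (i0 _ _ _ hz)
  have h2 : u⁻¹ • c ∈ side Γ a (!ε) := hR.orb _ c hc ▸ mem_orbit c _
  obtain ⟨ψ, hψ, h3⟩ := exists_emb (H := H) (x0 := y0) (x := u⁻¹ • c)
    (fun h hh => hinj _ (i0 _ h _ hy0) fun z hz => by
      rw [← h1 h z hz, hh, ← one_smul H y0, ← h1 1 z hz, one_smul])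
    (by rw [hR.orb _ _ h2, hR0.orb _ _ hy0, hR.ncard_side, hR0.ncard_side])
  rw [hR.orb _ _ h2, hR0.orb _ _ hy0] at hψ
  let f : α → Ω := fun z => if z = a0 then a else if z ∈ side Γ0 a0 ε then φ z else ψ z
  have f0 : f a0 = a := if_pos rfl
  have f1 : ∀ z ∈ side Γ0 a0 ε, f z = φ z := fun z hz => (if_neg hz.1).trans (if_pos hz)
  have f2 : ∀ z ∈ side Γ0 a0 (!ε), f z = ψ z := fun z hz => (if_neg hz.1).trans (if_neg fun h => side_disj h hz)
  have c0 : ∀ w, Γ.Adj a (f w) ↔ Γ0.Adj a0 w := fun w => by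
    rcases side_cases (Γ := Γ0) (a := a0) ε w with rfl | h | h
    · simp [f0]
    · rw [f1 w h, (hφ.bij.mapsTo h).2, h.2]
    · rw [f2 w h, (hψ.bij.mapsTo h).2, h.2]
  have c1 : ∀ z ∈ side Γ0 a0 ε, ∀ w ∈ side Γ0 a0 (!ε), Γ.Adj (f z) (f w) ↔ Γ0.Adj z w := fun z hz w hw => by
    obtain ⟨h, rfl⟩ : w ∈ orbit H y0 := (hR0.orb _ y0 hy0).symm ▸ hw
    rw [f1 z hz, f2 _ hw, hψ.eqv h _ hy0, h3]
    exact h1 h z hz
  have c2 : ∀ ε' (χ : α → Ω) (b : α), b ∈ side Γ0 a0 ε' → Emb H χ (side Γ0 a0 ε') (side Γ a ε') →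
      (∀ z ∈ side Γ0 a0 ε', Γ.Adj (χ b) (χ z) ↔ Γ0.Adj b z) →
      ∀ z ∈ side Γ0 a0 ε', ∀ w ∈ side Γ0 a0 ε', Γ.Adj (χ z) (χ w) ↔ Γ0.Adj z w := fun ε' χ b hb hχ h z hz w hw => by
    obtain ⟨s, rfl⟩ : z ∈ orbit H b := (hR0.orb _ b hb).symm ▸ hz
    rw [← hχ.adj hR s⁻¹ hz hw, ← hR0.inv s⁻¹]
    simp only [inv_smul_smul]
    exact h _ (i0 _ _ _ hw)
  have hadj : ∀ z w, Γ.Adj (f z) (f w) ↔ Γ0.Adj z w := fun z w => by
    rcases side_cases (Γ := Γ0) (a := a0) ε z with rfl | hz | hz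
    · rw [f0, c0]
    all_goals rcases side_cases (Γ := Γ0) (a := a0) ε w with rfl | hw | hw
    · rw [f0, Γ.adj_comm, c0, Γ0.adj_comm]
    · rw [f1 z hz, f1 w hw, c2 _ φ x0 hx0 hφ hX z hz w hw]
    · exact c1 z hz w hw
    · rw [f0, Γ.adj_comm, c0, Γ0.adj_comm]
    · rw [Γ.adj_comm, c1 w hw z hz, Γ0.adj_comm]
    · rw [f2 z hz, f2 w hw, c2 _ ψ y0 hy0 hψ (hY ψ hψ) z hz w hw]
  have hs : Function.Surjective f := fun z => by
    rcases side_cases (Γ := Γ) (a := a) ε z with rfl | hz | hz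
    · exact ⟨a0, f0⟩
    · obtain ⟨w, hw, rfl⟩ := hφ.bij.surjOn hz
      exact ⟨w, f1 w hw⟩
    · obtain ⟨w, hw, rfl⟩ := hψ.bij.surjOn hz
      exact ⟨w, f2 w hw⟩
  exact ⟨⟨Equiv.ofBijective f (hs.bijective_of_nat_card_le (by rw [hR.card, hR0.card])), hadj _ _⟩⟩

/-- Both graphs have the same neighbours of the base point on its side. -/
theorem side_adj [Finite Ω] [Finite α] (hR : RK3 H Γ a N k l m) {Γ0 : SimpleGraph α} {a0 : α}
    (hR0 : RK3 H Γ0 a0 N k l m) (M : Mod e n T g r x0 inX) (hx0 : e x0 ∈ side Γ0 a0 ε)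
    (hφ : Emb H φ (side Γ0 a0 ε) (side Γ a ε)) {T1 : ℕ → ℕ → ℕ} {g1 : ℕ → H} {r1 : ℕ} (ht : Tabs e n T1 g1 r1)
    (hfix : genLt g1 r1 ≤ stabilizer H (e x0)) {E rt sz : ℕ → ℕ} {c σ : ℕ}
    (hol : allRange 0 n (olOK T1 r1 E rt) = true) (hsz : szOK n c E sz = true)
    (hsub : subOK c sz (fun v => inX (rt v)) (cond ε l (k - m)) σ = true) :
    ∀ z ∈ side Γ0 a0 ε, Γ.Adj (φ (e x0)) (φ z) ↔ Γ0.Adj (e x0) z := by
  rw [← hR0.orb _ _ hx0] at hφ ⊢
  intro z hz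
  rw [M.orb] at hz
  obtain ⟨i, hi, rfl⟩ := hz
  rw [adj_base hR M hφ ht hfix hol hsz hsub hi.1 hi.2,
    ← adj_base hR0 M (φ := id) ((hR0.orb _ _ hx0).symm ▸ emb_id _) ht hfix hol hsz hsub hi.1 hi.2]
  rfl

/-- Transport along an isomorphism of the acting groups. -/
theorem RK3.comp {H' : Type*} [Group H'] (hR : RK3 H Γ a N k l m) (ψ : H' ≃* H) :
    @RK3 H' _ Ω (MulAction.compHom Ω ψ.toMonoidHom) Γ a N k l m :=
  @RK3.mk H' _ Ω (MulAction.compHom Ω ψ.toMonoidHom) Γ a N k l m hR.toSrg (fun h => hR.inv (ψ h))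
    (fun h => hR.fix (ψ h)) fun ε z hz => by
      rw [← hR.orb ε z hz]
      ext y
      exact ⟨fun ⟨h, e⟩ => ⟨ψ h, e⟩, fun ⟨h, e⟩ => ⟨ψ.symm h, by
        change ψ (ψ.symm h) • z = y; rw [ψ.apply_symm_apply]; exact e⟩⟩

end

section Group

variable {G Ω : Type*} [Group G] [MulAction G Ω]

/-- The graph of a rank 3 group. -/
theorem exists_rk3 [Fintype Ω] [IsPretransitive G Ω] {a b c : Ω} {k k' l m : ℕ}
    (hb : (orbit (stabilizer G a) b).ncard = k) (hc : (orbit (stabilizer G a) c).ncard = k')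
    (hn : Fintype.card Ω = 1 + k + k') (hk : k ≠ 1) (hk' : k' ≠ 1) (hne : k ≠ k')
    (hp : ∀ (Γ : SimpleGraph Ω) [DecidableRel Γ.Adj] (l' m' : ℕ), Γ.IsSRGWith (1 + k + k') k l' m' → Γ.Adj a b →
      l' = l ∧ m' = m) :
    ∃ Γ : SimpleGraph Ω, (∀ (g : G) x y, Γ.Adj (g • x) (g • y) ↔ Γ.Adj x y) ∧
      (∀ y, Γ.Adj a y ↔ y ∈ orbit (stabilizer G a) b) ∧ RK3 (stabilizer G a) Γ a (1 + k + k') k l m := by
  classical
  obtain ⟨Γ, h1, h2, l', m', h3⟩ := Srg.exists_srg hb hc hn hk hk' hne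
  obtain ⟨rfl, rfl⟩ := hp Γ l' m' h3 ((h2 _).2 (mem_orbit_self _))
  refine ⟨Γ, h1, h2, Srg.of h3, fun h => h1 h, fun h => h.2, fun ε z hz => ?_⟩
  have h4 : side Γ a true = orbit (stabilizer G a) b := by rw [side_true]; exact Set.ext h2
  have h5 : side Γ a false = orbit (stabilizer G a) c := by
    ext y
    simp only [side, Set.mem_ofPred_eq, Bool.false_eq_true, iff_false, h2]
    refine ⟨fun h => ((Srg.rank3_cover hb hc hn hk hk' hne y).resolve_left h.1).resolve_left h.2, fun h =>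
      ⟨fun e => Srg.not_mem_orbit_stab hc hk' (e ▸ h), fun h' => hne ?_⟩⟩
    rw [← hb, ← hc, ← orbit_eq_iff.2 h, ← orbit_eq_iff.2 h']
  cases ε
  · rw [h5] at hz ⊢; exact orbit_eq_iff.2 hz
  · rw [h4] at hz ⊢; exact orbit_eq_iff.2 hz

/-- Two groups of the same order acting on isomorphic graphs with few automorphisms. -/
theorem equiv_of_iso [FaithfulSMul G Ω] {G0 α : Type*} [Group G0] [MulAction G0 α] [FaithfulSMul G0 α]
    [IsSimpleGroup G0] {Γ : SimpleGraph Ω} {Γ0 : SimpleGraph α} [Finite α]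
    (h : ∀ (g : G) x y, Γ.Adj (g • x) (g • y) ↔ Γ.Adj x y) (h0 : ∀ (g : G0) x y, Γ0.Adj (g • x) (g • y) ↔ Γ0.Adj x y)
    (e : Γ0 ≃g Γ) (hc : Nat.card G = Nat.card G0) (hA : Nat.card (Γ0 ≃g Γ0) ≤ 2 * Nat.card G0)
    (h2 : 2 < Nat.card G0) : Nonempty (G ≃* G0) := by
  have hψ : Function.Injective ((Srg.autCongr e.symm).toMonoidHom.comp (Srg.toAut Γ h)) :=
    (Srg.autCongr e.symm).injective.comp (Srg.toAut_injective Γ h)
  have hφ := Srg.toAut_injective Γ0 h0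
  have : IsSimpleGroup (Srg.toAut Γ0 h0).range := (MonoidHom.ofInjective hφ).symm.isSimpleGroup
  have : Finite (Γ0 ≃g Γ0) := Finite.of_injective _ RelIso.toEquiv_injective
  have c1 := Nat.card_congr (MonoidHom.ofInjective hφ).toEquiv
  have c2 := Nat.card_congr (MonoidHom.ofInjective hψ).toEquiv
  have e1 := Srg.eq_of_card_le_two_mul ((c2.symm.trans hc).trans c1) (c1 ▸ hA) (c1 ▸ h2)
  exact ⟨((MonoidHom.ofInjective hψ).trans (MulEquiv.subgroupCongr e1)).trans (MonoidHom.ofInjective hφ).symm⟩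

theorem card_of_stab [Fintype Ω] [IsPretransitive G Ω] (a : Ω) :
    Nat.card G = Fintype.card Ω * Nat.card (stabilizer G a) := by
  rw [← (stabilizer G a).index_mul_card, index_stabilizer_of_transitive, Nat.card_eq_fintype_card]

end Group

end Cfsg.Agent.Spor.R3
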