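import Mathlib
import Cfsg.Agent.Spor.R3.Iso

/-!
Recognition of rank 3 groups, part 5: an upper bound for the number of automorphisms of a graph.
-/

set_option autoImplicit false

namespace Cfsg.Agent.Spor.R3

open MulAction

/-- The points of `c` that agree with `b` on all masks. -/
noncomputable def cell (MS : List ℕ) (b c : ℕ) : ℕ :=
  List.rec c (fun M _ ih => Bool.rec (Nat.xor ih (Nat.land ih M)) (Nat.land ih M) (bit M b)) MS

theorem bit_cell {MS : List ℕ} {b c j : ℕ} (h : bit c j = true) (h' : ∀ M ∈ MS, bit M j = bit M b) :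
    bit (cell MS b c) j = true := by
  induction MS with
  | nil => exact h
  | cons M MS ih =>
    have h1 : cell (M :: MS) b c = Bool.rec (cell MS b c ^^^ (cell MS b c &&& M)) (cell MS b c &&& M) (bit M b) := rfl
    have h2 := ih fun M hM => h' M (by simp [hM])
    have h3 := h' M (by simp)
    rw [h1]
    cases h4 : bit M b <;> rw [h4, bit_eq] at h3 <;> rw [bit_eq] at h2 ⊢ <;> simp [h2, h3]

theorem eq_of_single {c i j : ℕ} (h : Nat.beq c (Nat.shiftLeft 1 j) = true) (hi : bit c i = true) : i = j := by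
  rw [bit_eq, (nbeq_iff _ _).1 h, shl_eq, mul_one, Nat.testBit_two_pow, decide_eq_true_iff] at hi
  exact hi.symm

/-- The values of the masks at a point. -/
noncomputable def sig (F : ℕ) (MS : List ℕ) (i : ℕ) : ℕ :=
  Bool.rec (Nat.mul 2 (List.rec 0 (fun M _ ih => Nat.add (Nat.mul 2 ih) (Bool.rec 0 1 (bit M i))) MS))
    (Nat.succ (Nat.mul 2 i)) (bit F i)

theorem sig_eq {F i j : ℕ} {MS : List ℕ} (hi : bit F i = false) (hj : bit F j = false)
    (h : ∀ M ∈ MS, bit M i = bit M j) : sig F MS i = sig F MS j := by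
  unfold sig
  rw [hi, hj]
  refine congrArg (Nat.mul 2) ?_
  induction MS with
  | nil => rfl
  | cons M MS ih => exact congrArg₂ (fun a b => Nat.add (Nat.mul 2 a) (Bool.rec 0 1 b)) (ih fun M hM => h M (by simp [hM])) (h M (by simp))

/-- The masks separate the points outside `F`: the points `ord 0, ord 1, …` have increasing values. -/
noncomputable def sep (n : ℕ) (ord pos : ℕ → ℕ) (F : ℕ) (MS : List ℕ) : Bool :=
  allRange 0 n fun i => band (force (pos i) fun p => band (blt p n) (Nat.beq (ord p) i))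
    (bor (Nat.beq (Nat.succ i) n) (blt (sig F MS (ord i)) (sig F MS (ord (Nat.succ i)))))

theorem eq_of_sep {n : ℕ} {ord pos : ℕ → ℕ} {F : ℕ} {MS : List ℕ} (h : sep n ord pos F MS = true) {i j : ℕ}
    (hi : i < n) (hj : j < n) (h' : sig F MS i = sig F MS j) : i = j := by
  have h1 := allRange_zero h
  simp only [force_eq, band_iff, bor_iff, blt_iff, nbeq_iff] at h1
  have h2 : StrictMonoOn (fun p => sig F MS (ord p)) (Set.Iio n) := fun a _ b hb hab => by
    induction b with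
    | zero => omega
    | succ b ih =>
      have hb' : b + 1 < n := hb
      have h3 := (h1 b (by omega)).2.resolve_left (by omega)
      rcases Nat.lt_succ_iff_lt_or_eq.1 hab with h4 | rfl
      exacts [(ih (by show b < n; omega) h4).trans h3, h3]
  rw [← (h1 i hi).1.2, ← (h1 j hj).1.2] at h' ⊢
  rw [h2.injOn (h1 i hi).1.1 (h1 j hj).1.1 h']

/-- An instruction: a point to fix, a bound for its orbit, and a new invariant mask with a word and the points
it depends on. -/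
structure Ins where
  /-- the point -/
  b : ℕ
  /-- the bound -/
  k : ℕ
  /-- the word -/
  u : List ℕ
  /-- the points the mask depends on -/
  Q : List ℕ
  /-- the mask -/
  M : ℕ

/-- The chain of point stabilisers. -/
noncomputable def autOK (n : ℕ) (ord pos : ℕ → ℕ) (Ls : List Ins) : ℕ → List ℕ → Bool :=
  List.rec (sep n ord pos)
    (fun t _ ih F MS => band (band (blt t.b n) (Nat.ble 1 t.k)) <| band
      (bor (bit F t.b) (force (cell MS t.b (Nat.xor (Nat.sub (Nat.shiftLeft 1 n) 1) F)) fun c =>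
        bor (Nat.beq c (Nat.shiftLeft 1 t.b)) (Nat.ble (count2 n (bit c)) t.k)))
      (force (Nat.lor F (Nat.shiftLeft 1 t.b)) fun F' => band (allL t.Q fun q => band (blt q n) (bit F' q))
        (ih F' (t.M :: MS)))) Ls

/-- The product of the bounds. -/
noncomputable def prodK (Ls : List Ins) : ℕ := List.rec 1 (fun t _ ih => Nat.mul t.k ih) Ls

/-- The mask of an instruction is the preimage of `D`. -/
noncomputable def insOK (T : ℕ → ℕ → ℕ) (r n : ℕ) (P : List ℕ) (D : ℕ → Bool) (t : Ins) : Bool :=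
  band (band (lettersLt r t.u) (band (lettersLt n t.Q) (beqL (mapL t.Q (traceP T t.u)) P)))
    (allRange 0 n fun y => beqB (bit t.M y) (D (traceP T t.u y)))

section

variable {α : Type*} {Γ : SimpleGraph α} {e : ℕ → α} {n : ℕ}

variable (Γ e n) in
/-- `D` is invariant under the automorphisms that fix the points of `Q`. -/
def Inv (Q : List ℕ) (D : ℕ → Bool) : Prop :=
  ∀ φ : Γ ≃g Γ, (∀ q ∈ Q, φ (e q) = e q) → ∀ i < n, ∀ j < n, φ (e i) = e j → D i = D j

variable (Γ e n) in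
/-- The automorphisms that fix the points of a mask. -/
def fixM (F : ℕ) : Subgroup (Γ ≃g Γ) := ⨅ i ∈ {i | i < n ∧ bit F i = true}, stabilizer (Γ ≃g Γ) (e i)

theorem mem_fixM {F : ℕ} {φ : Γ ≃g Γ} : φ ∈ fixM Γ e n F ↔ ∀ i < n, bit F i = true → φ (e i) = e i := by
  simp only [fixM, Subgroup.mem_iInf, Set.mem_ofPred_eq, and_imp]
  rfl

theorem bit_free {F j : ℕ} (hj : j < n) (h : bit F j = false) :
    bit (Nat.xor (Nat.sub (Nat.shiftLeft 1 n) 1) F) j = true := by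
  rw [bit_eq] at h ⊢
  rw [shl_eq, mul_one, Nat.xor_eq, Nat.sub_eq, Nat.testBit_xor, Nat.testBit_two_pow_sub_one, h]
  simpa using hj

theorem card_fixM_le [Finite α] (he : Set.InjOn e (Set.Iio n)) (hs : ∀ z, ∃ i < n, e i = z) {Ls : List Ins}
    (hL : ∀ t ∈ Ls, Inv Γ e n t.Q (bit t.M)) {ord pos : ℕ → ℕ} {F : ℕ} {MS : List ℕ}
    (h : autOK n ord pos Ls F MS = true)
    (hM : ∀ M ∈ MS, ∀ φ ∈ fixM Γ e n F, ∀ i < n, ∀ j < n, φ (e i) = e j → bit M i = bit M j) :
    Nat.card (fixM Γ e n F) ≤ prodK Ls := by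
  have : Finite (Γ ≃g Γ) := Finite.of_injective _ RelIso.toEquiv_injective
  have key : ∀ F, ∀ φ ∈ fixM Γ e n F, ∀ i < n, ∀ j < n, φ (e i) = e j → bit F i = false → bit F j = false := by
    intro F φ hφ i hi j hj h1 h2
    by_contra h3
    rw [Bool.not_eq_false] at h3
    rw [he hi hj (φ.injective (h1.trans (mem_fixM.1 hφ j hj h3).symm)), h3] at h2
    exact absurd h2 (by simp)
  induction Ls generalizing F MS with
  | nil =>
    refine (Subgroup.eq_bot_iff_card _).1 ?_ |>.le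
    rw [eq_bot_iff]
    intro φ hφ
    rw [Subgroup.mem_bot]
    ext z
    obtain ⟨i, hi, rfl⟩ := hs z
    obtain ⟨j, hj, h1⟩ := hs (φ (e i))
    cases h2 : bit F i
    · rw [← h1, eq_of_sep h hi hj (sig_eq h2 (key F φ hφ i hi j hj h1.symm h2)
        fun M hM' => hM M hM' φ hφ i hi j hj h1.symm)]
      rfl
    · exact mem_fixM.1 hφ i hi h2
  | cons t Ls ih =>
    have h1 : band (band (blt t.b n) (Nat.ble 1 t.k)) (band
      (bor (bit F t.b) (force (cell MS t.b (Nat.xor (Nat.sub (Nat.shiftLeft 1 n) 1) F)) fun c =>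
        bor (Nat.beq c (Nat.shiftLeft 1 t.b)) (Nat.ble (count2 n (bit c)) t.k)))
      (force (Nat.lor F (Nat.shiftLeft 1 t.b)) fun F' => band (allL t.Q fun q => band (blt q n) (bit F' q))
        (autOK n ord pos Ls F' (t.M :: MS)))) = true := h
    simp only [force_eq, band_iff, bor_iff, blt_iff, allL_iff, Nat.ble_eq] at h1
    obtain ⟨⟨a1, a2⟩, a3, a4, a5⟩ := h1
    have h2 : ∀ i, bit (Nat.lor F (Nat.shiftLeft 1 t.b)) i = true ↔ bit F i = true ∨ i = t.b := fun i => by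
      rw [bit_eq, bit_eq, shl_eq, mul_one, Nat.lor_eq, Nat.testBit_or, Nat.testBit_two_pow]
      simp only [Bool.or_eq_true, decide_eq_true_eq]
      exact or_congr_right eq_comm
    have h3 : fixM Γ e n (Nat.lor F (Nat.shiftLeft 1 t.b)) = fixM Γ e n F ⊓ stabilizer _ (e t.b) := by
      ext φ
      rw [Subgroup.mem_inf, mem_fixM, mem_fixM]
      exact ⟨fun h => ⟨fun i hi h' => h i hi ((h2 i).2 (Or.inl h')), h _ a1 ((h2 _).2 (Or.inr rfl))⟩,
        fun h i hi h' => ((h2 i).1 h').elim (h.1 i hi) fun h'' => h'' ▸ h.2⟩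
    have h4 := ih (fun t ht => hL t (by simp [ht])) a5 fun M hM' φ hφ => by
      rcases List.mem_cons.1 hM' with rfl | hM'
      · exact hL t (by simp) φ fun q hq => mem_fixM.1 hφ q (a4 q hq).1 (a4 q hq).2
      · exact hM M hM' φ (h3 ▸ hφ).1
    rw [card_sub _ (e t.b), ← h3]
    refine Nat.mul_le_mul ?_ h4
    have h5 : (∀ φ ∈ fixM Γ e n F, φ (e t.b) = e t.b) → (orbit (fixM Γ e n F) (e t.b)).ncard ≤ t.k := fun h =>
      (Set.ncard_le_ncard (t := {e t.b}) (by rintro _ ⟨φ, rfl⟩; exact h φ φ.2)).trans (by simpa using a2)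
    cases h6 : bit F t.b
    · have h7 : ∀ φ ∈ fixM Γ e n F, ∀ j < n, φ (e t.b) = e j →
          bit (cell MS t.b (Nat.xor (Nat.sub (Nat.shiftLeft 1 n) 1) F)) j = true := fun φ hφ j hj h =>
        bit_cell (bit_free hj (key F φ hφ _ a1 j hj h h6)) fun M hM' => (hM M hM' φ hφ _ a1 j hj h).symm
      rcases a3.resolve_left (by simp [h6]) with h8 | h8
      · refine h5 fun φ hφ => ?_
        obtain ⟨j, hj, h9⟩ := hs (φ (e t.b))
        rw [← h9, eq_of_single h8 (h7 φ hφ j hj h9.symm)]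
      · refine le_trans ?_ h8
        rw [← ncard_image_label he]
        refine Set.ncard_le_ncard ?_
        rintro _ ⟨φ, rfl⟩
        obtain ⟨j, hj, h9⟩ := hs (φ.1 (e t.b))
        exact ⟨j, ⟨hj, h7 φ φ.2 j hj h9.symm⟩, h9⟩
    · exact h5 fun φ hφ => mem_fixM.1 hφ _ a1 h6

theorem card_aut_le [Finite α] (he : Set.InjOn e (Set.Iio n)) (hs : ∀ z, ∃ i < n, e i = z) {Ls : List Ins}
    (hL : ∀ t ∈ Ls, Inv Γ e n t.Q (bit t.M)) {ord pos : ℕ → ℕ} (h : autOK n ord pos Ls 0 [] = true) :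
    Nat.card (Γ ≃g Γ) ≤ prodK Ls := by
  have h1 := card_fixM_le he hs hL h (by simp)
  rwa [show fixM Γ e n 0 = ⊤ from eq_top_iff.2 fun φ _ => mem_fixM.2 fun i _ h => by simp [bit_eq] at h,
    Subgroup.card_top] at h1

variable {G : Type*} [Group G] [MulAction G α] {T : ℕ → ℕ → ℕ} {g : ℕ → G} {r : ℕ}

theorem Inv.ins (hG : ∀ (y : G) x z, Γ.Adj (y • x) (y • z) ↔ Γ.Adj x z) (ht : Tabs e n T g r) {P : List ℕ}
    {D : ℕ → Bool} (h : Inv Γ e n P D) {t : Ins} (hc : insOK T r n P D t = true) : Inv Γ e n t.Q (bit t.M) := by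
  simp only [insOK, band_iff] at hc
  obtain ⟨⟨a1, a2, a3⟩, a4⟩ := hc
  have h1 := ht.evalW a1
  intro φ hφ i hi j hj h2
  rw [(beqB_iff _ _).1 (allRange_zero a4 i hi), (beqB_iff _ _).1 (allRange_zero a4 j hj)]
  have h3 : ∀ z, (Srg.toAut Γ hG (evalW g t.u) * φ * (Srg.toAut Γ hG (evalW g t.u))⁻¹) (evalW g t.u • z) =
      evalW g t.u • φ z := fun z => by
    rw [← map_inv]
    show evalW g t.u • φ ((evalW g t.u)⁻¹ • _) = _
    rw [inv_smul_smul]
  refine h (Srg.toAut Γ hG (evalW g t.u) * φ * (Srg.toAut Γ hG (evalW g t.u))⁻¹) (fun p hp => ?_) _ (h1 i hi).1 _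
    (h1 j hj).1 (by rw [← (h1 i hi).2, h3, h2, (h1 j hj).2])
  rw [← eq_of_beqL a3, mapL_eq, List.mem_map] at hp
  obtain ⟨q, hq, rfl⟩ := hp
  rw [← (h1 q ((lettersLt_iff _ _).1 a2 q hq)).2, h3, hφ q hq]

theorem inv_adj {a0 : ℕ} {D : ℕ → Bool} (hD : ∀ i < n, Γ.Adj (e a0) (e i) ↔ D i = true) : Inv Γ e n [a0] D :=
  fun φ hφ i hi j hj h => by rw [Bool.eq_iff_iff, ← hD i hi, ← hD j hj, ← h, ← φ.map_adj_iff, hφ a0 (by simp)]

theorem adj_of_word (hG : ∀ (y : G) x z, Γ.Adj (y • x) (y • z) ↔ Γ.Adj x z) (ht : Tabs e n T g r) {a0 : ℕ}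
    {D : ℕ → Bool} (hD : ∀ i < n, Γ.Adj (e a0) (e i) ↔ D i = true) {u : List ℕ} {y : ℕ} (hu : lettersLt r u = true)
    (hy : y < n) (h : traceP T u y = a0) {i : ℕ} (hi : i < n) : Γ.Adj (e y) (e i) ↔ D (traceP T u i) = true := by
  have h1 := ht.evalW hu
  rw [← hG (evalW g u), (h1 y hy).2, (h1 i hi).2, h, hD _ (h1 i hi).1]

/-- The number of common neighbours of `a0`, `x0` and the root of the class `v`. -/
noncomputable def cntN (T : ℕ → ℕ → ℕ) (n : ℕ) (D : ℕ → Bool) (u : List ℕ) (U : LT) (v : ℕ) : ℕ :=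
  count2 n fun y => band (D y) (band (D (traceP T u y)) (D (traceP T (U.get v) y)))

/-- The class 1 is determined by adjacency and the number of common neighbours. -/
noncomputable def cntOK (T : ℕ → ℕ → ℕ) (r n a0 x0 c : ℕ) (D : ℕ → Bool) (rt : ℕ → ℕ) (u : List ℕ) (U : LT) : Bool :=
  band (band (lettersLt r u) (Nat.beq (traceP T u x0) a0)) <| force (cntN T n D u U 1) fun c1 =>
    allLt c fun v => band (band (lettersLt r (U.get v)) (Nat.beq (traceP T (U.get v) (rt v)) a0)) <|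
      bor (Nat.beq v 1) <| bor (!beqB (D (rt v)) (D (rt 1))) <|
        bor (!beqB (D (traceP T u (rt v))) (D (traceP T u (rt 1)))) (!Nat.beq (cntN T n D u U v) c1)

theorem inv_count (he : Set.InjOn e (Set.Iio n)) (hs : ∀ z, ∃ i < n, e i = z)
    (hG : ∀ (y : G) x z, Γ.Adj (y • x) (y • z) ↔ Γ.Adj x z) (ht : Tabs e n T g r) {a0 x0 c r1 : ℕ} (hx : x0 < n)
    {D : ℕ → Bool} (hD : ∀ i < n, Γ.Adj (e a0) (e i) ↔ D i = true) (hr : r1 ≤ r)
    (h1 : genLt g r1 ≤ stabilizer G (e a0)) (h2 : genLt g r1 ≤ stabilizer G (e x0)) {E rt : ℕ → ℕ}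
    (hol : allRange 0 n (olOK T r1 E rt) = true) (hc : ∀ i < n, labE E i < c) (hc1 : 1 < c) (hrt : rt 1 < n)
    {u : List ℕ} {U : LT} (h : cntOK T r n a0 x0 c D rt u U = true) :
    Inv Γ e n [a0, x0] fun i => Nat.beq (labE E i) 1 := by
  simp only [cntOK, force_eq, band_iff, allLt_iff, nbeq_iff] at h
  obtain ⟨⟨a1, a2⟩, a3⟩ := h
  let τ : α → Prop × Prop × ℕ := fun z =>
    (Γ.Adj (e a0) z, Γ.Adj (e x0) z, {w | Γ.Adj (e a0) w ∧ Γ.Adj (e x0) w ∧ Γ.Adj z w}.ncard)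
  have t1 : ∀ φ : Γ ≃g Γ, φ (e a0) = e a0 → φ (e x0) = e x0 → ∀ z, τ (φ z) = τ z := fun φ b1 b2 z => by
    have b3 : ∀ w, Γ.Adj (e a0) (φ w) ↔ Γ.Adj (e a0) w := fun w => by rw [← φ.map_adj_iff (w := w), b1]
    have b4 : ∀ w, Γ.Adj (e x0) (φ w) ↔ Γ.Adj (e x0) w := fun w => by rw [← φ.map_adj_iff (w := w), b2]
    refine Prod.ext (propext (b3 z)) (Prod.ext (propext (b4 z)) ?_)
    show Set.ncard _ = Set.ncard _
    rw [← Set.ncard_image_of_injective {w | Γ.Adj (e a0) w ∧ Γ.Adj (e x0) w ∧ Γ.Adj z w} φ.injective]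
    congr 1
    ext w
    obtain ⟨w, rfl⟩ := φ.surjective w
    rw [φ.injective.mem_set_image]
    simp only [Set.mem_ofPred_eq, b3, b4, φ.map_adj_iff]
  have t2 : ∀ v < c, rt v < n → τ (e (rt v)) =
      (D (rt v) = true, D (traceP T u (rt v)) = true, cntN T n D u U v) := fun v hv hv' => by
    refine Prod.ext (propext (hD _ hv')) (Prod.ext (propext (adj_of_word hG ht hD a1 hx a2 hv')) ?_)
    show Set.ncard _ = cntN T n D u U v
    rw [cntN, ← ncard_image_label he]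
    congr 1
    ext w
    obtain ⟨i, hi, rfl⟩ := hs w
    rw [Set.mem_ofPred_eq, hD i hi, adj_of_word hG ht hD a1 hx a2 hi,
      adj_of_word hG ht hD (a3 v hv).1.1 hv' (a3 v hv).1.2 hi, ← band_iff, ← band_iff]
    exact ⟨fun h => ⟨i, ⟨hi, h⟩, rfl⟩, fun ⟨j, hj, h⟩ => he hj.1 hi h ▸ hj.2⟩
  have t3 : ∀ i < n, Nat.beq (labE E i) 1 = true ↔ τ (e i) = τ (e (rt 1)) := fun i hi => by
    obtain ⟨b1, y, hy, b2⟩ := ol_root (ht.mono hr) hol hi
    rw [← b2, ← Srg.toAut_apply Γ hG, t1 (Srg.toAut Γ hG y) (mem_stabilizer_iff.1 (h1 hy)) (mem_stabilizer_iff.1 (h2 hy)), nbeq_iff]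
    refine ⟨fun h => by rw [h], fun h => ?_⟩
    rw [t2 _ (hc i hi) b1, t2 1 hc1 hrt] at h
    simp only [Prod.mk.injEq, eq_iff_iff, ← Bool.eq_iff_iff] at h
    have b3 := (a3 _ (hc i hi)).2
    rw [h.1, h.2.1, h.2.2, (beqB_iff _ _).2 rfl, (beqB_iff _ _).2 rfl, (nbeq_iff _ _).2 rfl] at b3
    simpa using b3
  intro φ hφ i hi j hj h
  rw [Bool.eq_iff_iff, t3 i hi, t3 j hj, ← h, t1 φ (hφ _ (by simp)) (hφ _ (by simp))]

end

end Cfsg.Agent.Spor.R3
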