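import Mathlib
import Cfsg.Agent.Spor.R3.Aut

/-!
Recognition of rank 3 groups, part 6: the model graph, twisting by automorphisms, actions on sets of points, and an
invariant that excludes exotic solutions.
-/

set_option autoImplicit false

namespace Cfsg.Agent.Spor.R3

open MulAction
open scoped Pointwise

section Sub

variable {G α : Type*} [Group G] [MulAction G α] {e : ℕ → α} {n r : ℕ} {T : ℕ → ℕ → ℕ} {g : ℕ → G}

open Classical in
/-- Letters as elements of a subgroup. -/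
noncomputable def subG (K : Subgroup G) (g : ℕ → G) (x : ℕ) : K := if h : g x ∈ K then ⟨g x, h⟩ else 1

theorem coe_subG {K : Subgroup G} {x : ℕ} (h : g x ∈ K) : (subG K g x : G) = g x := by rw [subG, dif_pos h]

theorem tabs_subG (h : Tabs e n T g r) {K : Subgroup G} (hK : genLt g r ≤ K) : Tabs e n T (subG K g) r :=
  fun x hx i hi => ⟨(h x hx i hi).1, by rw [Subgroup.smul_def, coe_subG (hK (mem_genLt g hx))]; exact (h x hx i hi).2⟩

theorem genLt_subG {K : Subgroup G} (hK : genLt g r ≤ K) : genLt (subG K g) r = (genLt g r).subgroupOf K := by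
  rw [← map_genLt K.subtype (g := subG K g) fun x hx => coe_subG (hK (mem_genLt g hx)), Subgroup.subgroupOf,
    Subgroup.comap_map_eq_self_of_injective K.subtype_injective]

theorem genLt_subG_top {K : Subgroup G} (hK : genLt g r = K) : genLt (subG K g) r = ⊤ := by
  rw [genLt_subG hK.le, hK, Subgroup.subgroupOf_self]

theorem genLt_subG_stab {K : Subgroup G} {x : α} (hK : K ⊓ stabilizer G x = genLt g r) :
    genLt (subG K g) r = stabilizer K x := by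
  rw [genLt_subG (hK ▸ inf_le_left), ← hK, Subgroup.inf_subgroupOf_left]
  rfl

theorem isBase_sub {K : Subgroup G} {B : List ℕ} (h : IsBase e K B) (L : Subgroup K) : IsBase e L B :=
  fun a _ hf => Subtype.ext (h a a.2 hf)

open Classical in
/-- The points as elements of an orbit. -/
noncomputable def orbE (G : Type*) [Group G] [MulAction G α] (e : ℕ → α) (a i : ℕ) : orbit G (e a) :=
  if h : e i ∈ orbit G (e a) then ⟨e i, h⟩ else ⟨e a, mem_orbit_self _⟩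

theorem orbE_spec {a : ℕ} (h : Tabs e n T g r) (he : Set.InjOn e (Set.Iio n)) (ht : genLt g r = ⊤) (ha : a < n)
    (ho : ∀ i < n, e i ∈ orbit G (e a)) : (∀ i < n, (orbE G e a i : α) = e i) ∧ Set.InjOn (orbE G e a) (Set.Iio n) ∧
      Tabs (orbE G e a) n T g r ∧ ∀ z, ∃ i < n, orbE G e a i = z := by
  have h1 : ∀ i < n, (orbE G e a i : α) = e i := fun i hi => by rw [orbE, dif_pos (ho i hi)]
  refine ⟨h1, fun i hi j hj h2 => he hi hj (by rw [← h1 i hi, h2, h1 j hj]), fun x hx i hi =>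
    ⟨(h x hx i hi).1, Subtype.ext ?_⟩, ?_⟩
  · rw [orbit.coe_smul, h1 i hi, h1 _ (h x hx i hi).1, (h x hx i hi).2]
  · rintro ⟨_, y, rfl⟩
    obtain ⟨j, hj, h2⟩ := h.smul_mem (ht ▸ Subgroup.mem_top y) ha
    exact ⟨j, hj, Subtype.ext ((h1 j hj).trans h2.symm)⟩

theorem card_of_surj (he : Set.InjOn e (Set.Iio n)) (hs : ∀ z, ∃ i < n, e i = z) : Nat.card α = n := by
  rw [← Set.ncard_univ, show (Set.univ : Set α) = e '' Set.Iio n from (Set.eq_univ_of_forall hs).symm,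
    he.ncard_image, Set.ncard_Iio_nat]

/-- The transitive model given by a class of an exact labelling. -/
theorem mod_of {K : Subgroup G} (h : Tabs e n T g r) (he : Set.InjOn e (Set.Iio n)) (hK : genLt g r = K)
    {E rt : ℕ → ℕ} (hol : allRange 0 n (olOK T r E rt) = true) (hcl : allRange 0 n (olCl T r E) = true) {x v : ℕ}
    (hx : x < n) (hv : labE E x = v) : Mod e n T (subG K g) r x fun i => Nat.beq (labE E i) v :=
  ⟨he, tabs_subG h hK.le, hx, by subst hK hv; exact ol_orbit h he hol hcl hx⟩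

/-- The mask of a list of points. -/
noncomputable def maskL (l : List ℕ) : ℕ := List.rec 0 (fun x _ ih => Nat.lor (Nat.shiftLeft 1 x) ih) l

theorem testBit_maskL (l : List ℕ) (i : ℕ) : (maskL l).testBit i = true ↔ i ∈ l := by
  induction l with
  | nil => simp [maskL]
  | cons x l ih =>
    have : maskL (x :: l) = Nat.shiftLeft 1 x ||| maskL l := rfl
    rw [this, shl_eq, mul_one, Nat.testBit_or, Nat.testBit_two_pow, Bool.or_eq_true, ih, decide_eq_true_iff,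
      List.mem_cons, eq_comm]

/-- The letters permute sets of points. -/
theorem tabs_sets (h : Tabs e n T g r) {ln : ℕ → List ℕ} {n' : ℕ} {T' : ℕ → ℕ → ℕ}
    (hc : ∀ x < r, allRange 0 n' (fun j => force (T' x j) fun j' => band (band (blt j' n') (lettersLt n (ln j)))
      (Nat.beq (maskL (mapL (ln j) (T x))) (maskL (ln j')))) = true) :
    Tabs (fun j => e '' {i | i ∈ ln j}) n' T' g r := fun x hx j hj => by
  have h1 := allRange_zero (hc x hx) j hj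
  simp only [force_eq, band_iff, blt_iff, nbeq_iff, lettersLt_iff, mapL_eq] at h1
  refine ⟨h1.1.1, ?_⟩
  have h2 : ∀ i, i ∈ ln (T' x j) ↔ i ∈ (ln j).map (T x) := fun i => by rw [← testBit_maskL, ← h1.2, testBit_maskL]
  ext z
  simp only [h2, List.mem_map]
  constructor
  · rintro ⟨_, ⟨i, hi, rfl⟩, rfl⟩
    exact ⟨_, ⟨i, hi, rfl⟩, (h x hx i (h1.1.2 i hi)).2.symm⟩
  · rintro ⟨_, ⟨i, hi, rfl⟩, rfl⟩
    exact ⟨_, ⟨i, hi, rfl⟩, (h x hx i (h1.1.2 i hi)).2⟩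

theorem injOn_sets (he : Set.InjOn e (Set.Iio n)) {ln : ℕ → List ℕ} {n' : ℕ}
    (hc : allRange 0 n' (fun j => band (lettersLt n (ln j))
      (bor (Nat.beq (Nat.succ j) n') (blt (maskL (ln j)) (maskL (ln (Nat.succ j)))))) = true) :
    Set.InjOn (fun j => e '' {i | i ∈ ln j}) (Set.Iio n') := by
  have h1 := allRange_zero hc
  simp only [band_iff, bor_iff, blt_iff, nbeq_iff, lettersLt_iff] at h1
  have h2 : ∀ j k, j < k → k < n' → maskL (ln j) < maskL (ln k) := fun j k hjk hk => by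
    induction k with
    | zero => omega
    | succ k ih =>
      have h3 := (h1 k (by omega)).2.resolve_left (by omega)
      rcases Nat.lt_succ_iff_lt_or_eq.1 hjk with h4 | rfl
      exacts [(ih h4 (by omega)).trans h3, h3]
  have h3 : ∀ j < n', ∀ k < n', e '' {i | i ∈ ln j} = e '' {i | i ∈ ln k} → ∀ i ∈ ln j, i ∈ ln k :=
    fun j hj k hk h i hi => by
      obtain ⟨i', hi', h4⟩ : e i ∈ e '' {i | i ∈ ln k} := h ▸ ⟨i, hi, rfl⟩
      exact he ((h1 k hk).1 i' hi') ((h1 j hj).1 i hi) h4 ▸ hi'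
  intro j hj k hk h
  have h4 : maskL (ln j) = maskL (ln k) := Nat.eq_of_testBit_eq fun i => by
    rw [Bool.eq_iff_iff, testBit_maskL, testBit_maskL]
    exact ⟨h3 j hj k hk h i, h3 k hk j hj h.symm i⟩
  rcases lt_trichotomy j k with h5 | h5 | h5
  exacts [absurd h4 (h2 j k h5 hk).ne, h5, absurd h4 (h2 k j h5 hj).ne']

end Sub

section Model

variable {G α : Type*} [Group G] [MulAction G α] {e : ℕ → α} {n r : ℕ} {T : ℕ → ℕ → ℕ} {g : ℕ → G}
  {Γ0 : SimpleGraph α} {a0 : ℕ} {D : ℕ → Bool}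

/-- The model graph. -/
theorem exists_model [Finite α] [IsPretransitive G α] (h : Tabs e n T g r) (he : Set.InjOn e (Set.Iio n))
    (hs : ∀ z, ∃ i < n, e i = z) (hK : genLt g r = stabilizer G (e a0)) {E rt : ℕ → ℕ}
    (hol : allRange 0 n (olOK T r E rt) = true) (hcl : allRange 0 n (olCl T r E) = true) {b c k k' l m : ℕ}
    (hb : b < n) (hc : c < n) (hb1 : labE E b = 1) (hc2 : labE E c = 2)
    (hk : count2 n (fun i => Nat.beq (labE E i) 1) = k) (hk' : count2 n (fun i => Nat.beq (labE E i) 2) = k')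
    (hn : n = 1 + k + k') (h1 : k ≠ 1) (h2 : k' ≠ 1) (h3 : k ≠ k')
    (hp : ∀ (Γ : SimpleGraph α) [Fintype α] [DecidableRel Γ.Adj] (l' m' : ℕ), Γ.IsSRGWith (1 + k + k') k l' m' →
      ∀ v w, Γ.Adj v w → l' = l ∧ m' = m) :
    ∃ Γ : SimpleGraph α, (∀ (y : G) x z, Γ.Adj (y • x) (y • z) ↔ Γ.Adj x z) ∧
      (∀ i < n, Γ.Adj (e a0) (e i) ↔ Nat.beq (labE E i) 1 = true) ∧
      RK3 (stabilizer G (e a0)) Γ (e a0) (1 + k + k') k l m ∧ e b ∈ side Γ (e a0) true ∧ e c ∈ side Γ (e a0) false := by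
  have := Fintype.ofFinite α
  have Mb := mod_of h he hK hol hcl hb hb1
  have Mc := mod_of h he hK hol hcl hc hc2
  obtain ⟨Γ, a1, a2, a3⟩ := exists_rk3 (Mb.ncard.trans hk) (Mc.ncard.trans hk')
    (by rw [← Nat.card_eq_fintype_card, card_of_surj he hs, hn]) h1 h2 h3 fun Γ _ l' m' h4 => hp Γ l' m' h4 _ _
  refine ⟨Γ, a1, fun i hi => (a2 _).trans (Mb.mem hi), a3, side_true ▸ (a2 _).2 (mem_orbit_self _),
    fun h4 => Srg.not_mem_orbit_stab (Mc.ncard.trans hk') h2 (h4 ▸ mem_orbit_self _), ?_⟩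
  rw [a2, Mb.mem hc, hc2]
  simp

/-- The neighbours of `y` among the points `inX` are given by the classes in `s`. -/
noncomputable def goodOK (T : ℕ → ℕ → ℕ) (r n a0 : ℕ) (D inX inY : ℕ → Bool) (S : ℕ → Bool) (y : ℕ) (u : List ℕ) : Bool :=
  band (band (band (blt y n) (inY y)) (band (lettersLt r u) (Nat.beq (traceP T u y) a0)))
    (allRange 0 n fun i => bor (!inX i) (beqB (S i) (D (traceP T u i))))

theorem good_spec (hG : ∀ (y : G) x z, Γ0.Adj (y • x) (y • z) ↔ Γ0.Adj x z) (ht : Tabs e n T g r)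
    (hD : ∀ i < n, Γ0.Adj (e a0) (e i) ↔ D i = true) {inX inY S : ℕ → Bool} {y : ℕ} {u : List ℕ}
    (h : goodOK T r n a0 D inX inY S y u = true) :
    y < n ∧ inY y = true ∧ ∀ i < n, inX i = true → (S i = true ↔ Γ0.Adj (e i) (e y)) := by
  simp only [goodOK, band_iff, blt_iff, nbeq_iff] at h
  refine ⟨h.1.1.1, h.1.1.2, fun i hi hi' => ?_⟩
  have h1 := allRange_zero h.2 i hi
  rw [hi', bor_iff, beqB_iff] at h1
  rw [Γ0.adj_comm, adj_of_word hG ht hD h.1.2.1 h.1.1.1 h.1.2.2 hi, h1.resolve_left (by simp)]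

/-- The roots other than `y0` are distinguished from `y0` by their neighbours among the points `inX`. -/
noncomputable def injOK (T : ℕ → ℕ → ℕ) (r n a0 y0 c : ℕ) (D inX inY : ℕ → Bool) (rt : ℕ → ℕ) (u : List ℕ)
    (U : LT) : Bool :=
  band (band (lettersLt r u) (Nat.beq (traceP T u y0) a0)) <| allLt c fun v => bor (!inY (rt v)) <|
    bor (Nat.beq (rt v) y0) <| force (hdL (U.get v)) fun p => band (band (blt p n) (inX p)) <|
      band (band (lettersLt r (tlL (U.get v))) (Nat.beq (traceP T (tlL (U.get v)) (rt v)) a0))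
        (!beqB (D (traceP T (tlL (U.get v)) p)) (D (traceP T u p)))

theorem inj_spec (hG : ∀ (y : G) x z, Γ0.Adj (y • x) (y • z) ↔ Γ0.Adj x z) (ht : Tabs e n T g r)
    (hD : ∀ i < n, Γ0.Adj (e a0) (e i) ↔ D i = true) {H : Type*} [Group H] [MulAction H α] {N k l m : ℕ}
    (hR : RK3 H Γ0 (e a0) N k l m) {T0 : ℕ → ℕ → ℕ} {g0 : ℕ → H} {r0 x0 y0 : ℕ} {inX inY : ℕ → Bool} {ε : Bool}
    (MX : Mod e n T0 g0 r0 x0 inX) (MY : Mod e n T0 g0 r0 y0 inY) (hx0 : e x0 ∈ side Γ0 (e a0) ε)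
    (hy0 : e y0 ∈ side Γ0 (e a0) (!ε)) {T1 : ℕ → ℕ → ℕ} {g1 : ℕ → H} {r1 : ℕ} (ht1 : Tabs e n T1 g1 r1)
    (hfix : genLt g1 r1 ≤ stabilizer H (e y0)) {E rt : ℕ → ℕ} (hol : allRange 0 n (olOK T1 r1 E rt) = true) {c : ℕ}
    (hc : ∀ i < n, labE E i < c) {u : List ℕ} {U : LT} (h : injOK T r n a0 y0 c D inX inY rt u U = true) :
    ∀ y ∈ side Γ0 (e a0) (!ε), (∀ z ∈ side Γ0 (e a0) ε, Γ0.Adj z y ↔ Γ0.Adj z (e y0)) → y = e y0 := by
  simp only [injOK, band_iff, allLt_iff, nbeq_iff, bor_iff, force_eq, blt_iff] at h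
  rw [← hR.orb _ _ hx0, ← hR.orb _ _ hy0]
  intro y hy h1
  obtain ⟨i, hi, rfl⟩ := MY.orb ▸ hy
  obtain ⟨b1, b, hb, b2⟩ := ol_root ht1 hol hi.1
  rw [← b2] at hy h1 ⊢
  rcases h.2 _ (hc i hi.1) with h2 | h2 | ⟨⟨c1, c2⟩, ⟨c3, c4⟩, c5⟩
  · rw [(MY.mem b1).1 ((mem_orbit_smul b).1 hy)] at h2
    exact absurd h2 (by simp)
  · rw [h2]; exact hfix hb
  · have h2 := h1 _ ((mem_orbit_smul b).2 ((MX.mem c1).2 c2))
    rw [hR.inv, ← hfix hb, hR.inv, Γ0.adj_comm, Γ0.adj_comm _ (e y0), adj_of_word hG ht hD c3 b1 c4 c1,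
      adj_of_word hG ht hD h.1.1 MY.lt h.1.2 c1, ← Bool.eq_iff_iff] at h2
    rw [h2, (beqB_iff _ _).2 rfl] at c5
    exact absurd c5 (by simp)

end Model

section Twist

variable {H Ω α : Type*} [Group H] [MulAction H Ω] [MulAction H α]

theorem exists_twist [Finite H] {e1 e2 : ℕ → α} {n r : ℕ} {S : ℕ → ℕ → ℕ} {g g' : ℕ → H} (h1 : Tabs e1 n S g r)
    (i1 : Set.InjOn e1 (Set.Iio n)) (ht : genLt g r = ⊤) (h2 : Tabs e2 n S g' r) (i2 : Set.InjOn e2 (Set.Iio n))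
    {X0 : Set α} (x1 : e1 '' Set.Iio n = X0) (x2 : e2 '' Set.Iio n = X0) (hf : ∀ a : H, (∀ z ∈ X0, a • z = z) → a = 1)
    {φ : α → Ω} {X : Set Ω} (hφ : Emb H φ X0 X) : ∃ (ψ : H ≃* H) (φ' : α → Ω),
      @Emb H Ω α _ (MulAction.compHom Ω ψ.toMonoidHom) _ φ' X0 X ∧ ∀ i < n, φ' (e1 i) = φ (e2 i) := by
  classical
  obtain ⟨ψ, -, -, a3⟩ := exists_hom_of_tabs h1 i1 h2 i2 fun a _ h => hf a (by
    rw [← x2]; rintro _ ⟨i, hi, rfl⟩; exact h i hi)
  let χ : H →* H := ψ.comp ((MonoidHom.id H).codRestrict _ fun y => ht ▸ Subgroup.mem_top y)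
  have a4 : ∀ y : H, ∀ i < n, ∀ j < n, y • e1 i = e1 j ↔ χ y • e2 i = e2 j := fun y => a3 ⟨y, _⟩
  have a5 : Function.Injective χ := (injective_iff_map_eq_one χ).2 fun y hy => hf y (by
    rw [← x1]; rintro _ ⟨i, hi, rfl⟩; exact (a4 y i hi i hi).2 (by rw [hy, one_smul]))
  let π : α → α := fun z => if h : ∃ i < n, e1 i = z then e2 h.choose else z
  have a6 : ∀ i < n, π (e1 i) = e2 i := fun i hi => by
    have h : ∃ j < n, e1 j = e1 i := ⟨i, hi, rfl⟩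
    show dite _ _ _ = _
    rw [dif_pos h, i1 h.choose_spec.1 hi h.choose_spec.2]
  have a7 : Set.BijOn π X0 X0 := by
    refine ⟨?_, ?_, ?_⟩
    · rw [← x1]; rintro _ ⟨i, hi, rfl⟩; rw [a6 i hi, x1, ← x2]; exact ⟨i, hi, rfl⟩
    · rw [← x1]; rintro _ ⟨i, hi, rfl⟩ _ ⟨j, hj, rfl⟩ h; rw [a6 i hi, a6 j hj] at h; rw [i2 hi hj h]
    · intro z hz
      rw [← x2] at hz
      obtain ⟨i, hi, rfl⟩ := hz
      exact ⟨e1 i, x1 ▸ ⟨i, hi, rfl⟩, a6 i hi⟩
  refine ⟨MulEquiv.ofBijective χ (Finite.injective_iff_bijective.1 a5), φ ∘ π,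
    @Emb.mk H Ω α _ (MulAction.compHom Ω _) _ _ _ _ (hφ.bij.comp a7) fun y z hz => ?_,
    fun i hi => congrArg φ (a6 i hi)⟩
  rw [← x1] at hz
  obtain ⟨i, hi, rfl⟩ := hz
  obtain ⟨j, hj, h⟩ := h1.smul_mem (ht ▸ Subgroup.mem_top y) hi
  show φ (π (y • e1 i)) = χ y • φ (π (e1 i))
  rw [h, a6 j hj, a6 i hi, ← hφ.eqv _ _ (x2 ▸ ⟨i, hi, rfl⟩), (a4 y i hi j hj).1 h]

variable {Γ : SimpleGraph Ω} {a : Ω} {N k l m : ℕ} {e : ℕ → α} {n r x0 : ℕ} {T : ℕ → ℕ → ℕ} {g : ℕ → H}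
  {inX : ℕ → Bool} {φ : α → Ω}

/-- The pairs `PR` of points are permuted by the letters that fix `x0`. -/
noncomputable def prOK (T : ℕ → ℕ → ℕ) (n r1 : ℕ) (inX : ℕ → Bool) (PR : List (ℕ × ℕ)) : Bool :=
  allL PR fun p => band (band (band (blt p.1 n) (inX p.1)) (band (blt p.2 n) (inX p.2))) <|
    allLt r1 fun x => !allL PR fun q => !band (Nat.beq (T x p.1) q.1) (Nat.beq (T x p.2) q.2)

/-- `z` selects the classes in `s` for which no pair at the root lies in `s`; their union has size prime to `q`. -/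
noncomputable def badOK (T : ℕ → ℕ → ℕ) (E rt : ℕ → ℕ) (n r x0 v q : ℕ) (inX : ℕ → Bool) (PR : List (ℕ × ℕ))
    (U : LT) (s z : ℕ) : Bool :=
  band (allLt v fun j => band (band (lettersLt r (U.get j)) (band (Nat.beq (traceP T (U.get j) x0) (rt j))
      (Nat.beq (labE E (rt j)) j))) (beqB (bit z j) (band (bit s j) (allL PR fun p =>
        !band (bit s (labE E (traceP T (U.get j) p.1))) (bit s (labE E (traceP T (U.get j) p.2)))))))
    (!Nat.beq (Nat.mod (count2 n fun i => band (inX i) (bit z (labE E i))) q) 0)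

theorem not_bad [Finite H] [Finite Ω] (hR : RK3 H Γ a N k l m) (M : Mod e n T g r x0 inX) {X : Set Ω}
    (hφ : Emb H φ (orbit H (e x0)) X) {r1 : ℕ} (hr : r1 ≤ r) (hst : genLt g r1 = stabilizer H (e x0))
    {PR : List (ℕ × ℕ)} (hPR : prOK T n r1 inX PR = true) {T1 : ℕ → ℕ → ℕ} {g1 : ℕ → H} {r2 : ℕ}
    (ht : Tabs e n T1 g1 r2) {E rt : ℕ → ℕ} (hol : allRange 0 n (olOK T1 r2 E rt) = true) {v : ℕ}
    (hv : allRange 0 n (fun i => bor (!inX i) (blt (labE E i) v)) = true) {c : Ω}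
    (hc : ∀ h ∈ genLt g1 r2, h • c = c) {s z q : ℕ} [Fact q.Prime]
    (hs : ∀ i < n, inX i = true → (Γ.Adj (φ (e i)) c ↔ bit s (labE E i) = true))
    (h1 : q ∣ Nat.card (stabilizer H c)) (h2 : ¬ q ∣ Nat.card (stabilizer H (e x0))) {U : LT}
    (h : badOK T E rt n r x0 v q inX PR U s z = true) : False := by
  simp only [badOK, band_iff, allLt_iff, nbeq_iff, beqB_iff] at h
  simp only [prOK, band_iff, allLt_iff, allL_iff, blt_iff] at hPR
  let Z : Ω → Prop := fun y => Γ.Adj y c ∧ ∀ h : H, h • φ (e x0) = y → ∀ p ∈ PR,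
    ¬ (Γ.Adj (h • φ (e p.1)) c ∧ Γ.Adj (h • φ (e p.2)) c)
  have z1 : ∀ κ : H, κ • c = c → ∀ y, Z y → Z (κ • y) := fun κ hκ y hy => by
    have b1 : ∀ w, Γ.Adj (κ • w) c ↔ Γ.Adj w c := fun w => by rw [← hR.inv κ w, hκ]
    refine ⟨(b1 y).2 hy.1, fun h h3 p hp => ?_⟩
    have := hy.2 (κ⁻¹ * h) (by rw [mul_smul, h3, inv_smul_smul]) p hp
    rwa [← b1, ← b1 (_ • φ (e p.2)), mul_smul, mul_smul, smul_inv_smul, smul_inv_smul] at this
  have z2 : ∀ b ∈ stabilizer H (e x0), ∀ p ∈ PR, ∃ p' ∈ PR, b • e p.1 = e p'.1 ∧ b • e p.2 = e p'.2 := by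
    intro b hb p hp
    obtain ⟨p', hp', h3⟩ := smul_mem_of_genLt (S := (fun p : ℕ × ℕ => (e p.1, e p.2)) '' {p | p ∈ PR}) (g := g)
      (m := r1) (PR.finite_toSet.image _) (by
        rintro x hx _ ⟨p, hp, rfl⟩
        have h3 := (hPR p hp).2 x hx
        rw [Bool.not_eq_true', ← Bool.not_eq_true, allL_iff] at h3
        simp only [not_forall, Bool.not_eq_true', Bool.not_eq_false, band_iff, nbeq_iff] at h3
        obtain ⟨p', hp', h4, h5⟩ := h3
        exact ⟨p', hp', Prod.ext ((congrArg e h4).symm.trans (M.tabs x (by omega) _ (hPR p hp).1.1.1).2.symm)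
          ((congrArg e h5).symm.trans (M.tabs x (by omega) _ (hPR p hp).1.2.1).2.symm)⟩) (hst ▸ hb) _ ⟨p, hp, rfl⟩
    exact ⟨p', hp', (congrArg Prod.fst h3).symm, (congrArg Prod.snd h3).symm⟩
  have z3 : ∀ j < v, Z (φ (e (rt j))) ↔ bit z j = true := fun j hj => by
    obtain ⟨⟨b1, b2, b3⟩, b4⟩ := h.1 j hj
    have b5 := M.tabs.evalW b1
    have b6 : ∀ i < n, inX i = true → traceP T (U.get j) i < n ∧ inX (traceP T (U.get j) i) = true ∧
        evalW g (U.get j) • φ (e i) = φ (e (traceP T (U.get j) i)) := fun i hi hi' =>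
      ⟨(b5 i hi).1, (M.mem (b5 i hi).1).1 ((b5 i hi).2 ▸ (mem_orbit_smul _).2 ((M.mem hi).2 hi')),
        by rw [← (b5 i hi).2, hφ.eqv _ _ ((M.mem hi).2 hi')]⟩
    have b7 := b6 x0 M.lt ((M.mem M.lt).1 (mem_orbit_self _))
    rw [b2] at b7
    have b8 : ∀ p ∈ PR, (Γ.Adj (evalW g (U.get j) • φ (e p.1)) c ∧ Γ.Adj (evalW g (U.get j) • φ (e p.2)) c) ↔
        band (bit s (labE E (traceP T (U.get j) p.1))) (bit s (labE E (traceP T (U.get j) p.2))) = true :=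
      fun p hp => by
        obtain ⟨c1, c2, c3⟩ := b6 _ (hPR p hp).1.1.1 (hPR p hp).1.1.2
        obtain ⟨d1, d2, d3⟩ := b6 _ (hPR p hp).1.2.1 (hPR p hp).1.2.2
        rw [c3, d3, hs _ c1 c2, hs _ d1 d2, band_iff]
    rw [b4, band_iff, allL_iff]
    refine and_congr (by rw [hs _ b7.1 b7.2.1, b3]) ⟨fun h3 p hp => ?_, fun h3 y hy p hp => ?_⟩
    · rw [Bool.not_eq_true', ← Bool.not_eq_true, ← b8 p hp]
      exact h3 _ b7.2.2 p hp
    · have b9 : (evalW g (U.get j))⁻¹ * y ∈ stabilizer H (e x0) :=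
        hφ.bij.injOn (mem_orbit _ _) (mem_orbit_self _) (by
          rw [hφ.eqv _ _ (mem_orbit_self _), mul_smul, hy, ← b7.2.2, inv_smul_smul])
      obtain ⟨p', hp', c1, c2⟩ := z2 _ b9 p hp
      have c3 := h3 p' hp'
      rw [Bool.not_eq_true', ← Bool.not_eq_true, ← b8 p' hp', ← c1, ← c2,
        hφ.eqv _ _ ((M.mem (hPR p hp).1.1.1).2 (hPR p hp).1.1.2),
        hφ.eqv _ _ ((M.mem (hPR p hp).1.2.1).2 (hPR p hp).1.2.2), smul_smul, smul_smul, mul_inv_cancel_left] at c3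
      exact c3
  have z4 : ∀ i < n, inX i = true → (Z (φ (e i)) ↔ bit z (labE E i) = true) := fun i hi hi' => by
    obtain ⟨b1, b, hb, b2⟩ := ol_root ht hol hi
    have b3 := allRange_zero hv i hi
    rw [hi', bor_iff, blt_iff] at b3
    rw [← z3 _ (b3.resolve_left (by simp)), ← b2, hφ.eqv _ _ ((mem_orbit_smul b).1 (b2 ▸ (M.mem hi).2 hi'))]
    exact ⟨fun h3 => by simpa using z1 b⁻¹ (hc _ (inv_mem hb)) _ h3, z1 b (hc b hb) _⟩
  have z5 : ∀ y ∈ X, ∃ u : H, u • φ (e x0) = y := fun y hy => by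
    obtain ⟨_, ⟨u, rfl⟩, rfl⟩ := hφ.bij.surjOn hy
    exact ⟨u, (hφ.eqv u _ (mem_orbit_self _)).symm⟩
  have z6 := dvd_ncard h1 (Set.toFinite {y | y ∈ X ∧ Z y}) (fun κ hκ y hy => ⟨by
      obtain ⟨u, rfl⟩ := z5 y hy.1
      rw [← mul_smul, ← hφ.eqv _ _ (mem_orbit_self _)]
      exact hφ.bij.mapsTo (mem_orbit _ _), z1 κ hκ y hy.2⟩) fun y hy => by
    obtain ⟨u, rfl⟩ := z5 y hy.1
    rwa [card_stab_eq (x0 := e x0) (by
      rw [orbit_smul, ← hφ.bij.injOn.ncard_image]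
      congr 1
      ext w
      exact ⟨fun ⟨u, h⟩ => ⟨_, mem_orbit _ u, (hφ.eqv u _ (mem_orbit_self _)).trans h⟩,
        by rintro ⟨_, ⟨u, rfl⟩, rfl⟩; exact ⟨u, (hφ.eqv u _ (mem_orbit_self _)).symm⟩⟩)]
  rw [← M.ncard_eq hφ Z] at z6
  have z7 : {i | i < n ∧ (inX i = true ∧ Z (φ (e i)))}.ncard = count2 n fun i => band (inX i) (bit z (labE E i)) := by
    rw [← ncard_image_label (e := id) (Set.injOn_id _), Set.image_id]
    congr 1
    ext i
    exact and_congr_right fun hi => by rw [band_iff]; exact and_congr_right (z4 i hi)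
  have z8 := h.2
  rw [← z7, show Nat.mod _ q = 0 from Nat.mod_eq_zero_of_dvd z6] at z8
  exact absurd z8 (by simp)

end Twist

section Sol

variable {H Ω α : Type*} [Group H] [MulAction H Ω] [MulAction H α] {Γ : SimpleGraph Ω} {a : Ω} {N k l m : ℕ}
  {e : ℕ → α} {n r x0 : ℕ} {T : ℕ → ℕ → ℕ} {g : ℕ → H} {inX : ℕ → Bool} {ε : Bool}

theorem pgrp_of (h : Tabs e n T g r) {B : List ℕ} (hB : IsBase e (genLt g r) B) {W : LT} {p r1 : ℕ}
    (hc : band (lettersLt n B) (allLt r1 fun x =>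
      band (band (lettersLt r (powW p (W.get x))) (fixesL T (powW p (W.get x)) B)) (allLt r1 fun y =>
        band (lettersLt r (appL (W.get x) (W.get y))) (band (lettersLt r (appL (W.get y) (W.get x)))
          (agreeL T (appL (W.get x) (W.get y)) (appL (W.get y) (W.get x)) B)))) = true) :
    IsPGroup p (genLt (fun x => evalW g (W.get x)) r1) := by
  rw [band_iff, allLt_iff] at hc
  refine isPGroup_genLt (fun x hx => ?_) fun x hx y hy => ?_
  · rw [← evalW_powW]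
    exact h.eq_one_of_base hB hc.1 ((band_iff _ _).1 (hc.2 x hx)).1
  · rw [← evalW_appL, ← evalW_appL]
    exact h.eq_of_base hB hc.1 ((allLt_iff _ _).1 ((band_iff _ _).1 (hc.2 x hx)).2 y hy)

/-- From the stabiliser on one side to the neighbours of a vertex on the other side. -/
theorem exists_sol [Finite H] [Finite Ω] (hR : RK3 H Γ a N k l m) (M : Mod e n T g r x0 inX) {x : Ω}
    (hx : x ∈ side Γ a ε) (hst : stabilizer H x ≤ stabilizer H (e x0)) (hn : count2 n inX = cond ε k (N - k - 1))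
    {T1 : ℕ → ℕ → ℕ} {g1 : ℕ → H} {r1 : ℕ} (ht : Tabs e n T1 g1 r1) (hfix : genLt g1 r1 ≤ stabilizer H (e x0))
    {E rt sz : ℕ → ℕ} {c σ : ℕ} (hol : allRange 0 n (olOK T1 r1 E rt) = true) (hsz : szOK n c E sz = true)
    (hsub : subOK c sz (fun v => inX (rt v)) (cond ε l (k - m)) σ = true) {ρ : ℕ} {L : List (ℕ × List ℕ × Bool)}
    (hq : quadOK T E σ n r x0 inX ε N k l m ρ L = true) {T2 : ℕ → ℕ → ℕ} {g2 : ℕ → H} {r2 p : ℕ} [Fact p.Prime]
    (ht2 : Tabs e n T2 g2 r2) (hp : IsPGroup p (genLt g2 r2)) (hp' : ¬ p ∣ cond (!ε) k (N - k - 1))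
    {E2 rt2 : ℕ → ℕ} (hol2 : allRange 0 n (olOK T2 r2 E2 rt2) = true) {v : ℕ}
    (hv : allRange 0 n (fun i => bor (!inX i) (blt (labE E2 i) v)) = true) {C : List (List ℕ × List ℕ)}
    (hC : conOK T E2 r L C = true) {I : List (ℕ × ℕ)} {acc : ℕ → Bool} (hρ : ρ ≤ 127) (hl : L.length ≤ 127)
    (hI : incOK C v I 0 = true) (hI' : I.length = v) (h : dfsOK C v ρ I acc = true) :
    ∃ φ, Emb H φ (orbit H (e x0)) (side Γ a ε) ∧ ∃ c ∈ side Γ a (!ε), ∃ s, acc s = true ∧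
      (∀ h ∈ genLt g2 r2, h • c = c) ∧ ∀ i < n, inX i = true → (Γ.Adj (φ (e i)) c ↔ bit s (labE E2 i) = true) := by
  obtain ⟨φ, hφ, -⟩ := exists_emb hst (by rw [hR.orb _ _ hx, hR.ncard_side, M.ncard, hn])
  rw [hR.orb _ _ hx] at hφ
  refine ⟨φ, hφ, exists_nbrs hR M hφ ?_ (fun c hc => quad hR M hφ
    (fun i hi hi' => adj_base hR M hφ ht hfix hol hsz hsub hi hi') hq hc) ht2 hp hp' hol2 hv hC hρ hl hI hI' h⟩
  unfold quadOK at hq
  simp only [band_iff, allL_iff] at hq ⊢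
  exact fun t ht => ⟨(hq.1 t ht).1, (hq.1 t ht).2.1⟩

/-- The isomorphism, once the neighbours of a vertex on the other side are known. -/
theorem iso_of_good [Finite H] [Finite Ω] [Finite α] (hR : RK3 H Γ a N k l m) {Γ0 : SimpleGraph α} {a0 y0 : ℕ}
    (hR0 : RK3 H Γ0 (e a0) N k l m) {inY : ℕ → Bool} (MX : Mod e n T g r x0 inX) (MY : Mod e n T g r y0 inY)
    (hx0 : e x0 ∈ side Γ0 (e a0) ε) (hy0 : e y0 ∈ side Γ0 (e a0) (!ε))
    {T1 : ℕ → ℕ → ℕ} {g1 : ℕ → H} {r1 : ℕ} (ht1 : Tabs e n T1 g1 r1) (hfix1 : genLt g1 r1 ≤ stabilizer H (e x0))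
    {E1 rt1 sz1 : ℕ → ℕ} {c1 σ1 : ℕ} (hol1 : allRange 0 n (olOK T1 r1 E1 rt1) = true) (hsz1 : szOK n c1 E1 sz1 = true)
    (hsub1 : subOK c1 sz1 (fun v => inX (rt1 v)) (cond ε l (k - m)) σ1 = true)
    {T2 : ℕ → ℕ → ℕ} {g2 : ℕ → H} {r2 : ℕ} (ht2 : Tabs e n T2 g2 r2) (hfix2 : genLt g2 r2 ≤ stabilizer H (e y0))
    {E2 rt2 sz2 : ℕ → ℕ} {c2 σ2 : ℕ} (hol2 : allRange 0 n (olOK T2 r2 E2 rt2) = true) (hsz2 : szOK n c2 E2 sz2 = true)
    (hsub2 : subOK c2 sz2 (fun v => inY (rt2 v)) (cond (!ε) l (k - m)) σ2 = true)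
    (hinj : ∀ y ∈ side Γ0 (e a0) (!ε), (∀ z ∈ side Γ0 (e a0) ε, Γ0.Adj z y ↔ Γ0.Adj z (e y0)) → y = e y0)
    {φ : α → Ω} (hφ : Emb H φ (orbit H (e x0)) (side Γ a ε)) {c : Ω} (hc : c ∈ side Γ a (!ε)) {S : ℕ → Bool} {y : ℕ}
    (hy : y < n ∧ inY y = true ∧ ∀ i < n, inX i = true → (S i = true ↔ Γ0.Adj (e i) (e y)))
    (hS : ∀ i < n, inX i = true → (Γ.Adj (φ (e i)) c ↔ S i = true)) : Nonempty (Γ0 ≃g Γ) := by
  rw [hR0.orb _ _ hx0] at hφ
  refine iso_of hR hR0 hx0 hy0 hφ (side_adj hR hR0 MX hx0 hφ ht1 hfix1 hol1 hsz1 hsub1)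
    (fun ψ hψ => side_adj hR hR0 MY hy0 hψ ht2 hfix2 hol2 hsz2 hsub2) hinj hc
    (hR0.orb _ _ hy0 ▸ (MY.mem hy.1).2 hy.2.1) fun z hz => ?_
  rw [← hR0.orb _ _ hx0, MX.orb] at hz
  obtain ⟨i, hi, rfl⟩ := hz
  rw [hS i hi.1 hi.2, hy.2.2 i hi.1 hi.2]

end Sol

end Cfsg.Agent.Spor.R3
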