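import Mathlib
import Cfsg.Agent.Spor.R3.Top

/-!
Recognition of rank 3 groups, part 7: twisted solutions and the final step.
-/

set_option autoImplicit false

namespace Cfsg.Agent.Spor.R3

open MulAction

/-- `P` enumerates the points `inX`, with inverse `Q`. -/
noncomputable def enumOK (n n' : ℕ) (inX : ℕ → Bool) (P Q : ℕ → ℕ) : Bool :=
  band (allRange 0 n' fun i => force (P i) fun p => band (band (blt p n) (inX p)) (Nat.beq (Q p) i))
    (allRange 0 n fun p => bor (!inX p) (force (Q p) fun i => band (blt i n') (Nat.beq (P i) p)))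

/-- The tables `S` are the restrictions of `T` to the points `P i`. -/
noncomputable def resOK (n n' r : ℕ) (T S : ℕ → ℕ → ℕ) (P : ℕ → ℕ) : Bool :=
  allLt r fun x => allRange 0 n' fun i => force (P i) fun p => band (blt p n) (force (S x i) fun j =>
    band (blt j n') (Nat.beq (T x p) (P j)))

section

variable {H Ω α : Type*} [Group H] [MulAction H Ω] [MulAction H α] {Γ : SimpleGraph Ω} {a : Ω} {N k l m : ℕ}
  {e : ℕ → α} {n r x0 : ℕ} {T : ℕ → ℕ → ℕ} {g : ℕ → H} {inX : ℕ → Bool} {φ : α → Ω}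

theorem enum_spec (he : Set.InjOn e (Set.Iio n)) {n' : ℕ} {P Q : ℕ → ℕ} (h : enumOK n n' inX P Q = true) :
    Set.InjOn (fun i => e (P i)) (Set.Iio n') ∧ (fun i => e (P i)) '' Set.Iio n' = e '' {i | i < n ∧ inX i = true} ∧
      (∀ i < n', P i < n ∧ inX (P i) = true) ∧ ∀ p < n, inX p = true → Q p < n' ∧ P (Q p) = p := by
  rw [enumOK, band_iff] at h
  have h1 := allRange_zero h.1
  have h2 := allRange_zero h.2
  simp only [force_eq, band_iff, bor_iff, blt_iff, nbeq_iff] at h1 h2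
  have h3 : ∀ p < n, inX p = true → Q p < n' ∧ P (Q p) = p := fun p hp hp' => (h2 p hp).resolve_left (by simp [hp'])
  refine ⟨fun i hi j hj h4 => by rw [← (h1 i hi).2, he (h1 i hi).1.1 (h1 j hj).1.1 h4, (h1 j hj).2], ?_,
    fun i hi => (h1 i hi).1, h3⟩
  ext z
  exact ⟨fun ⟨i, hi, h4⟩ => ⟨P i, (h1 i hi).1, h4⟩,
    fun ⟨p, hp, h4⟩ => ⟨Q p, (h3 p hp.1 hp.2).1, (congrArg e (h3 p hp.1 hp.2).2).trans h4⟩⟩

/-- A solution can be moved by a permutation that normalises the group. -/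
theorem twist_sol [Finite H] (M : Mod e n T g r x0 inX) (ht : genLt g r = ⊤)
    (hf : ∀ y : H, (∀ z ∈ orbit H (e x0), y • z = z) → y = 1) {n' : ℕ} {P P' Q Q' : ℕ → ℕ} {S : ℕ → ℕ → ℕ} {W : LT}
    (h1 : band (enumOK n n' inX P P') (resOK n n' r T S P) = true)
    (h2 : band (band (enumOK n n' inX Q Q') (allLt r fun x => lettersLt r (W.get x)))
      (resOK n n' r (fun x => traceP T (W.get x)) S Q) = true) {X : Set Ω} (hφ : Emb H φ (orbit H (e x0)) X)
    {c : Ω} {F : ℕ → Bool} (hS : ∀ i < n, inX i = true → (Γ.Adj (φ (e i)) c ↔ F i = true)) :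
    ∃ (ψ : H ≃* H) (φ' : α → Ω), @Emb H Ω α _ (MulAction.compHom Ω ψ.toMonoidHom) _ φ' (orbit H (e x0)) X ∧
      ∀ i < n, inX i = true → (Γ.Adj (φ' (e i)) c ↔ F (Q (P' i)) = true) := by
  simp only [band_iff] at h1 h2
  obtain ⟨a1, a2, -, a4⟩ := enum_spec M.inj h1.1
  obtain ⟨b1, b2, b3, -⟩ := enum_spec M.inj h2.1.1
  obtain ⟨ψ, φ', c1, c2⟩ := exists_twist (M.tabs.restrict_each ((allLt_iff _ _).1 h1.2)) a1 ht
    ((M.tabs.wordsT h2.1.2).restrict_each ((allLt_iff _ _).1 h2.2)) b1 (a2.trans M.orb.symm) (b2.trans M.orb.symm)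
    hf hφ
  refine ⟨ψ, φ', c1, fun i hi hi' => ?_⟩
  obtain ⟨d1, d2⟩ := a4 i hi hi'
  rw [← hS _ (b3 _ d1).1 (b3 _ d1).2, ← c2 _ d1, d2]

/-- The transitive model given by a class of an exact labelling, for letters that generate the group. -/
theorem mod_top (h : Tabs e n T g r) (he : Set.InjOn e (Set.Iio n)) (ht : genLt g r = ⊤) {E rt : ℕ → ℕ}
    (hol : allRange 0 n (olOK T r E rt) = true) (hcl : allRange 0 n (olCl T r E) = true) {x v : ℕ}
    (hx : band (blt x n) (Nat.beq (labE E x) v) = true) : Mod e n T g r x fun i => Nat.beq (labE E i) v := by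
  rw [band_iff, blt_iff, nbeq_iff] at hx
  refine ⟨he, h, hx.1, ?_⟩
  rw [← hx.2, ← ol_orbit h he hol hcl hx.1, ht]
  exact Set.ext fun z => ⟨fun ⟨y, hy⟩ => ⟨⟨y, trivial⟩, hy⟩, fun ⟨y, hy⟩ => ⟨y, hy⟩⟩

/-- The group acts faithfully on one side. -/
theorem faithful_side [FaithfulSMul H Ω] (hR : RK3 H Γ a N k l m) {ε : Bool} {y0 : Ω} (hy0 : y0 ∈ side Γ a (!ε))
    (hinj : ∀ y ∈ side Γ a (!ε), (∀ z ∈ side Γ a ε, Γ.Adj z y ↔ Γ.Adj z y0) → y = y0) (b : H)
    (hb : ∀ z ∈ side Γ a ε, b • z = z) : b = 1 := by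
  refine eq_of_smul_eq_smul (α := Ω) fun z => ?_
  rw [one_smul]
  rcases side_cases (Γ := Γ) (a := a) ε z with rfl | hz | hz
  · exact hR.fix b
  · exact hb z hz
  obtain ⟨u, rfl⟩ : z ∈ orbit H y0 := (hR.orb _ y0 hy0).symm ▸ hz
  have h1 := hinj ((u⁻¹ * b * u) • y0) (hR.orb _ y0 hy0 ▸ mem_orbit _ _) fun w hw => by
    rw [← hR.inv u w y0, ← hR.inv b (u • w), hb _ (hR.orb _ w hw ▸ mem_orbit w u), ← hR.inv u w, mul_smul, mul_smul,
      smul_inv_smul]
  rwa [mul_smul, mul_smul, inv_smul_eq_iff] at h1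

end

/-- A permutation model with the first two stabilisers. -/
structure Base {G α : Type*} [Group G] [MulAction G α] (e : ℕ → α) (n : ℕ) (T : ℕ → ℕ → ℕ) (k : ℕ → G)
    (m r r1 a0 x0 : ℕ) (B : List ℕ) : Prop where
  inj : Set.InjOn e (Set.Iio n)
  surj : ∀ z, ∃ i < n, e i = z
  tabs : Tabs e n T k m
  hr : r ≤ m
  st0 : genLt k r = stabilizer G (e a0)
  st1 : genLt k r ⊓ stabilizer G (e x0) = genLt k r1
  base : IsBase e (genLt k r) B

section

variable {G α : Type*} [Group G] [MulAction G α] {e : ℕ → α} {n : ℕ} {T : ℕ → ℕ → ℕ} {k : ℕ → G}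
  {m r r1 a0 x0 : ℕ} {B : List ℕ} (h : Base e n T k m r r1 a0 x0 B)

include h

theorem Base.finite : Finite α :=
  Set.finite_univ_iff.1 (((Set.finite_Iio n).image e).subset fun z _ => h.surj z)

theorem Base.faithful : FaithfulSMul G α :=
  ⟨fun {x y} h1 => by
    have h2 : ∀ z : α, (y⁻¹ * x) • z = z := fun z => by rw [mul_smul, h1, inv_smul_smul]
    exact (inv_mul_eq_one.1 (h.base _ (h.st0 ▸ h2 _) fun b _ => h2 _)).symm⟩

theorem Base.top : genLt (subG (stabilizer G (e a0)) k) r = ⊤ := genLt_subG_top h.st0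

theorem Base.stab : genLt (subG (stabilizer G (e a0)) k) r1 = stabilizer (stabilizer G (e a0)) (e x0) :=
  genLt_subG_stab (h.st0 ▸ h.st1)

theorem Base.baseH : IsBase e (genLt (subG (stabilizer G (e a0)) k) r) B := isBase_sub (h.st0 ▸ h.base) _

theorem Base.card_stab {c : ℕ} (hc : Nat.card (genLt k r1) = c) :
    Nat.card (stabilizer (stabilizer G (e a0)) (e x0)) = c := by
  have h1 : genLt k r1 ≤ stabilizer G (e a0) := h.st1 ▸ h.st0 ▸ inf_le_left
  rw [← h.stab, genLt_subG h1, ← hc]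
  exact Nat.card_congr (Subgroup.subgroupOfEquivOfLe h1).toEquiv

theorem Base.mod {E rt : ℕ → ℕ} (hol : allRange 0 n (olOK T r E rt) = true) (hcl : allRange 0 n (olCl T r E) = true)
    {x v : ℕ} (hx : band (blt x n) (Nat.beq (labE E x) v) = true) :
    Mod e n T (subG (stabilizer G (e a0)) k) r x fun i => Nat.beq (labE E i) v :=
  mod_of (h.tabs.mono h.hr) h.inj h.st0 hol hcl ((blt_iff _ _).1 ((band_iff _ _).1 hx).1)
    ((nbeq_iff _ _).1 ((band_iff _ _).1 hx).2)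

end

/-- The final step. -/
theorem recog {Ω : Type*} [Fintype Ω] (G : Subgroup (Equiv.Perm Ω)) [IsPretransitive G Ω] {a b c : Ω} {k k' l m : ℕ}
    (hb : (orbit (stabilizer G a) b).ncard = k) (hc : (orbit (stabilizer G a) c).ncard = k')
    (hn : Fintype.card Ω = 1 + k + k') (hk : k ≠ 1) (hk' : k' ≠ 1) (hne : k ≠ k')
    (hp : ∀ (Γ : SimpleGraph Ω) [DecidableRel Γ.Adj] (l' m' : ℕ), Γ.IsSRGWith (1 + k + k') k l' m' → Γ.Adj a b →
      l' = l ∧ m' = m) {G0 α H : Type*} [Group G0] [MulAction G0 α] [FaithfulSMul G0 α] [IsSimpleGroup G0] [Finite α]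
    [Group H] {Γ0 : SimpleGraph α} (h0 : ∀ (g : G0) x y, Γ0.Adj (g • x) (g • y) ↔ Γ0.Adj x y)
    (ψ : H ≃* stabilizer G a) (hcard : Nat.card G0 = (1 + k + k') * Nat.card H)
    (hA : Nat.card (Γ0 ≃g Γ0) ≤ 2 * Nat.card G0) (h2 : 2 < Nat.card G0)
    (main : ∀ [MulAction H Ω] (Γ : SimpleGraph Ω), RK3 H Γ a (1 + k + k') k l m → Nonempty (Γ0 ≃g Γ)) :
    Nonempty (G ≃* G0) := by
  obtain ⟨Γ, h1, -, h3⟩ := exists_rk3 hb hc hn hk hk' hne hp
  obtain ⟨f⟩ := @main (MulAction.compHom Ω ψ.toMonoidHom) Γ (h3.comp ψ)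
  exact equiv_of_iso h1 h0 f (by rw [card_of_stab a, hcard, hn, Nat.card_congr ψ.toEquiv]) hA h2

end Cfsg.Agent.Spor.R3
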